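import Cfsg.Agent.H9.FF4
import Cfsg.Agent.H21.SmallAut
import Cfsg.Agent.H10.Wreathed2
import Cfsg.Agent.H11.Small

/-! Abelian best offenders in characteristic two are elementary abelian. -/

set_option autoImplicit false

namespace H10.AbJ
open Cfsg Subgroup H28 H9
open scoped Pointwise commutatorElement

variable {G : Type*} [Group G] [Finite G] {V H N : Subgroup G}

theorem exists_off1 (h : FF 2 V H N) {A : Subgroup G} (hAH : A ≤ H) (hp : IsPGroup 2 A)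
    (hA : IsBestOffenderOn 0 V A) (h0 : A ≠ ⊥) : ∃ C ≤ A, Off1 2 V H C := by
  have hVV := ea_le_centralizer h.ea
  have hAV := hAH.trans h.norm
  obtain ⟨h1, h2⟩ := replace_eq hVV hAV hA.2.1 hA.1 le_rfl
  have h3 := IsBestOffenderOn.of_le hA inf_le_left h2.le
  have h4 : IsBestOffenderOn 2 V (A ⊓ 𝐂 ⁅V, A⁆) := ⟨h3.1, h3.2.1, fun a ha v hv => by
    have h5 : ⁅v⁻¹, a⁆ ∈ ⁅V, A⁆ := commutator_mem_commutator (inv_mem hv) ha.1
    have h6 := ha.2 _ h5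
    have h7 := h.ea.2 _ (commutator_le_of_le hAV le_rfl h5)
    have h8 : a * v = v * ⁅v⁻¹, a⁆ * a := by rw [commutatorElement_def]; group
    generalize ⁅v⁻¹, a⁆ = w at h6 h7 h8
    symm
    calc a ^ 2 * v = a * (v * w * a) := by rw [sq, mul_assoc, h8]
      _ = a * v * (w * a) := by simp only [mul_assoc]
      _ = v * (w * a * w) * a := by rw [h8]; simp only [mul_assoc]
      _ = v * (w ^ 2) * a ^ 2 := by rw [mul_assoc w, ← h6, sq, sq]; group
      _ = v * a ^ 2 := by rw [h7, mul_one]⟩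
  by_contra hn
  have h5 : A ⊓ 𝐂 ⁅V, A⁆ = ⊥ := eq_bot_iff.2 ((h.le_sSup_off1 (inf_le_left.trans hAH) h4).trans
    (sSup_le fun C hC => (hn ⟨C, hC.1.trans inf_le_left, hC.2⟩).elim))
  rw [h5, H28.centralizer_bot, inf_top_eq] at h1
  refine h0 (h.eq_bot hAH (commutator_eq_bot_iff'.1 (eq_bot_of_le_commutator_of_pow_mem
    (ea_isPGroup h.ea) hAV (fun a ha => (isPGroup_iff_mem.1 hp a ha).imp fun k hk => by
      rw [hk]; exact one_mem _) (commutator_le_of_le hAV le_rfl) ?_)))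
  nth_rw 1 [h1]
  rw [commutator_sup_of_le_abelian hVV hAV (commutator_le_of_le hAV le_rfl) inf_le_left,
    H28.commutator_eq_bot_iff.2 (inf_le_right : V ⊓ 𝐂 A ≤ _), sup_bot_eq]

theorem sq_eq_one (h : FF 2 V H N) {A : Subgroup G} (hAH : A ≤ H) (hp : IsPGroup 2 A)
    (hA : IsBestOffenderOn 0 V A) : ∀ a ∈ A, a ^ 2 = 1 := by
  induction A using WellFoundedLT.induction with
  | ind A ih =>
  by_cases h0 : A = ⊥
  · intro a ha; rw [mem_bot.1 (h0.le ha), one_pow]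
  obtain ⟨C, hCA, hC⟩ := exists_off1 h hAH hp hA h0
  have hAA : A ≤ 𝐂 A := H28.commutator_eq_bot_iff.1
    (h.eq_bot ((commutator_le_of_le_normalizer le_normalizer).trans hAH) hA.2.1)
  have hP := h.pairEA hC
  have hAC : A ≤ 𝐍 C := le_normalizer_of_le_abelian hAA hCA
  have hU : A ≤ 𝐍 ⁅V, ⁅N, C⁆ ⊔ C⁆ := le_normalizer_commutator (hAH.trans h.norm)
    (le_normalizer_sup (le_normalizer_commutator (hAH.trans h.nn) hAC) hAC)
  have hUV : ⁅V, ⁅N, C⁆ ⊔ C⁆ ≤ V := commutator_le_of_le_normalizer ((h.EA_le hC.le).trans h.norm)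
  obtain ⟨s, hs1, rfl⟩ := exists_zpowers_of_card_prime Nat.prime_two hC.card
  have hs : s ∉ 𝐂 ⁅V, ⁅N, zpowers s⁆ ⊔ zpowers s⁆ := fun e =>
    hs1 (mem_bot.1 (hP.faith ▸ ⟨mem_sup_right (mem_zpowers s), e⟩))
  have hs2 : s ^ 2 = 1 := by rw [← hC.card, Nat.card_zpowers, pow_orderOf_eq_one]
  have hsA := hCA (mem_zpowers s)
  have h4 := hP.card_comm
  generalize ⁅V, ⁅N, zpowers s⁆ ⊔ zpowers s⁆ = U at hU hUV hs h4
  have h5 : (𝐂 U).relIndex A = 2 := by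
    have a : (𝐂 U).relIndex (𝐍 U) ∣ 2 * 3 := by
      rw [relIndex, ← normalizerMonoidHom_ker, index_ker]
      exact (card_subgroup_dvd_card _).trans
        (by simpa [h4, Nat.factorial] using H21.card_mulAut_dvd_factorial (G := U))
    have b : (𝐂 U).relIndex A ∣ (𝐂 U).relIndex (𝐍 U) := by
      rw [← relIndex_subgroupOf hU]
      exact relIndex_dvd_index_of_normal _ _
    obtain ⟨k, hk⟩ := hp.exists_card_eq
    have c : ((𝐂 U).relIndex A).Coprime 3 :=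
      Nat.Coprime.coprime_dvd_left (hk ▸ relIndex_dvd_card _ _) (Nat.Coprime.pow_left _ (by decide))
    exact ((Nat.dvd_prime Nat.prime_two).1 (c.dvd_of_dvd_mul_right (b.trans a))).resolve_left
      fun e => hs (relIndex_eq_one.1 e hsA)
  have h6 : V ⊓ 𝐂 A < V ⊓ 𝐂 (A ⊓ 𝐂 U) := lt_of_le_of_ne
    (inf_le_inf_left _ (centralizer_anti inf_le_left)) fun e => hs (le_centralizer_comm.1
      (((le_inf hUV (le_centralizer_comm.1 inf_le_right)).trans e.ge).trans inf_le_right) hsA)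
  have h7 : 2 * Nat.card ↥(V ⊓ 𝐂 A) ≤ Nat.card ↥(V ⊓ 𝐂 (A ⊓ 𝐂 U)) := by
    have := H4.card_mul_le_of_lt ((ea_isPGroup h.ea).to_le (inf_le_left : V ⊓ 𝐂 (A ⊓ 𝐂 U) ≤ V))
      (M := (V ⊓ 𝐂 A).subgroupOf (V ⊓ 𝐂 (A ⊓ 𝐂 U))) (N := ⊤)
      (lt_top_iff_ne_top.2 fun e => h6.not_ge (subgroupOf_eq_top.1 e))
    rwa [card_subgroupOf h6.le, card_top, mul_comm] at this
  have h8 := H1.relIndex_mul_card (inf_le_left : A ⊓ 𝐂 U ≤ A)
  rw [inf_relIndex_left, h5] at h8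
  have h9 := ih (A ⊓ 𝐂 U) (lt_of_le_of_ne inf_le_left fun e => hs (e.ge hsA).2)
    (inf_le_left.trans hAH) (hp.to_le inf_le_left)
    (IsBestOffenderOn.of_le hA inf_le_left (by rw [← h8]; nlinarith))
  intro a ha
  by_cases h10 : a ∈ 𝐂 U
  · exact h9 a ⟨ha, h10⟩
  have h11 := h9 (a * s) ⟨mul_mem ha hsA, mem_subgroupOf.1 ((mul_mem_iff_of_index_two
    (H := (𝐂 U).subgroupOf A) h5 (a := ⟨a, ha⟩) (b := ⟨s, hsA⟩)).2 (iff_of_false h10 hs))⟩
  rwa [Commute.mul_pow (hAA hsA a ha), hs2, mul_one] at h11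

theorem iso_pi (h : FF 2 V H N) (hJ : H ≤ sSup {A | Off1 2 V H A}) (h0 : H ≠ ⊥) :
    ∃ n, 1 ≤ n ∧ Nonempty (H ≃* (Fin n → Equiv.Perm (Fin 3))) := by
  classical
  obtain ⟨n, ⟨ε⟩⟩ := Finite.exists_equiv_fin {E // ∃ A, Off1 2 V H A ∧ E = ⁅N, A⁆ ⊔ A}
  have hinj : Function.Injective fun i => (ε.symm i).1 := Subtype.val_injective.comp ε.symm.injective
  obtain ⟨h1, h2, -⟩ := h.structure_thm hJ _ hinj (fun i => (ε.symm i).2)
    fun A hA => ⟨ε ⟨_, A, hA, rfl⟩, by simp⟩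
  have h3 : Pairwise fun i j => ∀ x y : G, x ∈ (ε.symm i).1 → y ∈ (ε.symm j).1 → Commute x y :=
    fun i j ne x y hx hy => by
      obtain ⟨A, hA, e⟩ := (ε.symm i).2
      obtain ⟨B, hB, e'⟩ := (ε.symm j).2
      have := (h.EA_eq_or hA hB).resolve_left fun e'' => ne (hinj (e.trans (e''.trans e'.symm)))
      exact (this.2.2 (e ▸ hx) y (e' ▸ hy)).symm
  have h4 : ∀ i, Nonempty ((ε.symm i).1 ≃* Equiv.Perm (Fin 3)) := fun i => by
    obtain ⟨A, hA, e⟩ := (ε.symm i).2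
    obtain ⟨f⟩ := (h.pairEA hA).iso
    obtain ⟨g⟩ := H11.nonempty_sl2_two_equiv (F := ZMod 2) rfl
    exact ⟨(MulEquiv.subgroupCongr e).trans (f.trans g)⟩
  obtain ⟨A, hA⟩ := FF.exists_off1 hJ h0
  exact ⟨n, Fin.pos (ε ⟨_, A, hA, rfl⟩), ⟨((MonoidHom.ofInjective
    (injective_noncommPiCoprod_of_iSupIndep (hcomm := h3) h1)).trans (MulEquiv.subgroupCongr
      (noncommPiCoprod_range.trans h2))).symm.trans (MulEquiv.piCongrRight fun i => (h4 i).some)⟩⟩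

universe u in
theorem main {X : Type u} [Group X] [Finite X] (hs : IsPSolvable 2 X)
    (hc : 𝐂 (pCore 2 X) ≤ pCore 2 X) {T : Subgroup X} (hT : IsSylowIn 2 T ⊤)
    (h0 : ¬ normalClosure (JJ 0 T : Set X) ≤ (𝐂 (T ⊓ 𝐂 T)).normalCore) :
    ∃ n : ℕ, 1 ≤ n ∧ Nonempty (↥(normalClosure (JJ 0 T : Set X)) ⧸
      ((𝐂 (T ⊓ 𝐂 T)).normalCore).subgroupOf (normalClosure (JJ 0 T : Set X)) ≃*
        (Fin n → Equiv.Perm (Fin 3))) := by
  have hOT : pCore 2 X ≤ T := hT.le_of_le_normalizer' H1.pCore_isPGroup le_top le_normalizer_of_normal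
  have h1 : nclIn (T ⊓ 𝐂 T) ⊤ ≤ pCore 2 X ⊓ 𝐂 (pCore 2 X) := nclIn_le
    (le_inf ((inf_le_right.trans (centralizer_anti hOT)).trans hc)
      (inf_le_right.trans (centralizer_anti hOT))) le_normalizer_of_normal
  haveI : (nclIn (T ⊓ 𝐂 T) ⊤).Normal := normal_iff_top_le.2 (le_normalizer_nclIn _ _)
  have h2 : (𝐂 (T ⊓ 𝐂 T)).normalCore = 𝐂 (nclIn (T ⊓ 𝐂 T) ⊤) := le_antisymm
    (le_centralizer_nclIn (normalCore_le _) le_normalizer_of_normal)
    (normal_le_normalCore.2 (centralizer_anti (le_nclIn _ _)))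
  have h3 : Red 2 (𝐂 (nclIn (T ⊓ 𝐂 T) ⊤)) ⊤ := fun D a1 a2 a3 => by
    refine le_centralizer_nclIn ?_ a2
    rw [← (hT.inf_normal' a1 a2).pResidualOf_sup]
    exact sup_le (a3.pResidualOf_le.trans (centralizer_anti (le_nclIn _ _)))
      (inf_le_left.trans (le_centralizer_comm.1 inf_le_right))
  rw [h2] at h0
  generalize nclIn (T ⊓ 𝐂 T) ⊤ = U at *
  have hUU : U ≤ 𝐂 U := (h1.trans inf_le_right).trans (centralizer_anti (h1.trans inf_le_left))
  have hU := H1.pCore_isPGroup.to_le (h1.trans inf_le_left)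
  haveI : (omegaOne 2 U).Normal := normal_iff_top_le.2 (le_normalizer_omegaOne le_normalizer_of_normal)
  have h4 : 𝐂 (omegaOne 2 U) = 𝐂 U := le_antisymm (h3 _ le_top le_normalizer_of_normal fun x hx => by
    obtain ⟨k, hk⟩ := H28.exists_pow_coprime (p := 2) (isOfFinOrder_of_finite x)
    exact ⟨k, H10.odd_centralizes_of_omega hU (H4.isMulCommutative_iff.2 fun a ha b hb => hUU hb a ha)
      (le_normalizer_of_normal (mem_top _)) hk fun t ht h => by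
        rw [← pow_mem hx _ t (mem_omegaOne ht h), mul_inv_cancel_right]⟩)
    (centralizer_anti (omegaOne_le _ _))
  have hW := ea_omegaOne (p := 2) hUU
  have hWT : omegaOne 2 U ≤ T := (omegaOne_le _ _).trans ((h1.trans inf_le_left).trans hOT)
  rw [← h4] at h0 h3 h2
  generalize omegaOne 2 U = W at *
  obtain ⟨Γ, _, _, ι, ψ, h, hk⟩ := exists_hol W
  set Y := normalClosure (JJ 0 T : Set X)
  have hred := h3.of_subnIn le_normalizer_of_normal
    (SubnIn.of_normal (le_top : Y ≤ ⊤) le_normalizer_of_normal)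
  have hO : pCoreOf 2 (Y.map ψ) = ⊥ := by
    have h1 := hred (Y ⊓ (pCoreOf 2 (Y.map ψ)).comap ψ) inf_le_left
      (le_normalizer_inf le_normalizer ((map_le_iff_le_comap.1 (le_normalizer_pCoreOf 2 _)).trans
        (le_normalizer_comap ψ)))
      (hk ▸ (pMod_ker_iff ψ).2 ((isPGroup_pCoreOf 2 _).to_le (map_le_iff_le_comap.2 inf_le_right)))
    refine eq_bot_iff.2 fun x hx => ?_
    obtain ⟨g, hg, rfl⟩ := pCoreOf_le _ _ hx
    exact hk.ge (h1 ⟨hg, hx⟩)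
  have hf := ff_of_pPrimeCore (Hol.ea_hat (ι := ι) (W := W) hW) (h.map_le_normalizer Y)
    (h.faith hk _) (H1.centralizer_pPrimeCore_le_of_isPSolvable
      (H1.isPSolvable_map (H1.isPSolvable_subgroup hs Y) ψ) (pCoreOf_eq_bot_iff.1 hO))
  have hn : ∀ g, ψ g ∈ 𝐍 (Y.map ψ) := fun g =>
    map_normalizer_le _ _ ⟨g, le_normalizer_of_normal (mem_top g), rfl⟩
  haveI : ((sSup {A | Off1 2 (hat ι W) (Y.map ψ) A}).comap ψ).Normal := ⟨fun x hx g => by
    rw [mem_comap, map_mul, map_mul, map_inv]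
    refine (?_ : cj (ψ g) (sSup {A | Off1 2 (hat ι W) (Y.map ψ) A}) ≤ _) (conj_mem_cj hx)
    rw [sSup_eq_iSup', H28.cj_iSup]
    exact iSup_le fun A => le_iSup_of_le ⟨_, A.2.conj' (h.map_le_normalizer ⊤ ⟨g, mem_top _, rfl⟩)
      (hn g)⟩ le_rfl⟩
  obtain ⟨n, a1, ⟨e⟩⟩ := iso_pi hf (map_le_iff_le_comap.2 (normalClosure_le_normal
    (JJ_le_iff.2 fun A hA => map_le_iff_le_comap.1 (by
      have b1 : A.map ψ ≤ Y.map ψ := map_mono (hA.le_JJ.trans le_normalClosure)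
      have b2 := h.best hk (p := 0) ⟨hA.best hWT ⟨ea_le_centralizer hW, fun _ _ => pow_zero _⟩,
        (H28.commutator_eq_bot_iff.2 hA.comm).le.trans bot_le, fun a _ =>
          (pow_zero a).symm ▸ one_mem _⟩
      exact (hf.le_sSup_off1 b1 ⟨b2.1, b2.2.1, fun a ha =>
        (sq_eq_one hf b1 ((hT.isPGroup.to_le hA.le).map ψ) b2 a ha).symm ▸ one_mem _⟩).trans
          (sSup_le_sSup fun _ hC => hC.2))))) fun e => h0 (hk ▸ (Subgroup.map_eq_bot_iff _).1 e)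
  refine ⟨n, a1, ⟨((QuotientGroup.quotientMulEquivOfEq ?_).trans
    (QuotientGroup.quotientKerEquivOfSurjective (ψ.subgroupMap Y)
      (ψ.subgroupMap_surjective Y))).trans e⟩⟩
  ext x
  rw [mem_subgroupOf, h2, ← hk, MonoidHom.mem_ker, MonoidHom.mem_ker, Subtype.ext_iff]
  rfl

end H10.AbJ
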