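import Cfsg.Agent.H10.Inverted
import Cfsg.Agent.H10.StrongEmb

/-!
Groups in which the centralizer of every involution is an elementary abelian 2-group.
-/

set_option autoImplicit false

namespace H10

open Cfsg Subgroup H28

variable {G : Type*} [Group G]

/-- The configuration of Burnside's characterization of `SL(2, 2^n)`. -/
structure EA (T : Subgroup G) : Prop where
  csq : ∀ t : G, orderOf t = 2 → ∀ c : G, c * t = t * c → c * c = 1
  sq : ∀ t ∈ T, t * t = 1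
  cent : ∀ t ∈ T, t ≠ 1 → ∀ g : G, g * t = t * g ↔ g ∈ T
  invH : ∀ t ∈ 𝐍 T, t * t = 1 → t ∈ T
  two : ∃ s ∈ T, ∃ t ∈ T, s ≠ 1 ∧ t ≠ 1 ∧ s ≠ t
  nn : 𝐍 T ≠ ⊤

theorem ea_of [Finite G] (T : Sylow 2 G) (hnc : ¬ IsCyclic (T : Subgroup G))
    (hnn : ¬ (T : Subgroup G).Normal)
    (hC : ∀ t : G, orderOf t = 2 → IsMulCommutative (centralizer ({t} : Set G)) ∧
      ∀ c ∈ centralizer ({t} : Set G), c ^ 2 = 1) : EA (T : Subgroup G) := by
  have csq : ∀ t : G, orderOf t = 2 → ∀ c : G, c * t = t * c → c * c = 1 := by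
    intro t ht c hc
    have := (hC t ht).2 c (mem_centralizer_singleton.2 hc)
    rwa [pow_two] at this
  have hP : ∀ t : G, orderOf t = 2 → IsPGroup 2 (centralizer ({t} : Set G)) := by
    intro t ht
    rw [isPGroup_iff_mem]
    intro x hx
    exact ⟨1, by simpa using (hC t ht).2 x hx⟩
  have hne : (T : Subgroup G) ≠ ⊥ := by
    intro h; apply hnc; rw [h]; infer_instance
  haveI : Nontrivial (T : Subgroup G) := (Subgroup.nontrivial_iff_ne_bot _).2 hne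
  haveI : Fact (Nat.Prime 2) := ⟨Nat.prime_two⟩
  obtain ⟨z, hz⟩ : ∃ z : center (T : Subgroup G), orderOf z = 2 := by
    have h1 := T.isPGroup'.center_nontrivial
    have h2 : IsPGroup 2 (center (T : Subgroup G)) := T.isPGroup'.to_subgroup _
    obtain ⟨n, hn, hc⟩ := h2.nontrivial_iff_card.1 h1
    exact exists_prime_orderOf_dvd_card' 2 (hc ▸ dvd_pow_self 2 hn.ne')
  have hz2 : orderOf ((z : (T : Subgroup G)) : G) = 2 := by
    rw [Subgroup.orderOf_coe, Subgroup.orderOf_coe, hz]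
  have hTz : (T : Subgroup G) ≤ centralizer ({((z : (T : Subgroup G)) : G)} : Set G) := by
    intro t ht
    rw [mem_centralizer_singleton]
    exact congrArg Subtype.val ((mem_center_iff.1 z.2) ⟨t, ht⟩)
  have sq : ∀ t ∈ (T : Subgroup G), t * t = 1 := fun t ht =>
    csq _ hz2 t (mem_centralizer_singleton.1 (hTz ht))
  have comm : ∀ s ∈ (T : Subgroup G), ∀ t ∈ (T : Subgroup G), s * t = t * s := by
    intro s hs t ht
    haveI := (hC _ hz2).1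
    exact congrArg Subtype.val (mul_comm' (⟨s, hTz hs⟩ : centralizer _) ⟨t, hTz ht⟩)
  refine ⟨csq, sq, ?_, ?_, ?_, ?_⟩
  · intro t ht h1 g
    have ht2 : orderOf t = 2 := orderOf_eq_prime (by rw [pow_two]; exact sq t ht) h1
    have hle : (T : Subgroup G) ≤ centralizer ({t} : Set G) := fun s hs =>
      mem_centralizer_singleton.2 (comm s hs t ht)
    have := T.is_maximal' (hP t ht2) hle
    rw [← mem_centralizer_singleton, this]
  · intro t ht h2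
    have h1 : IsPGroup 2 (zpowers t) := H28.isPGroup_zpowers (k := 1) (by simpa [pow_two] using h2)
    have h3 := isPGroup_sup_of_le_normalizer h1 T.isPGroup' (by simpa using ht)
    have := T.is_maximal' h3 le_sup_right
    rw [← this]
    exact mem_sup_left (mem_zpowers t)
  · by_contra h
    push Not at h
    apply hnc
    refine ⟨⟨(z : (T : Subgroup G)), ?_⟩⟩
    intro t
    have hz1 : ((z : (T : Subgroup G)) : G) ≠ 1 := by
      intro h0; rw [h0, orderOf_one] at hz2; omega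
    by_cases ht : (t : G) = 1
    · exact ⟨0, by ext; simp [ht]⟩
    · exact ⟨1, by ext; simpa using h _ (z : (T : Subgroup G)).2 t t.2 hz1 ht⟩
  · intro h
    exact hnn (normal_iff_top_le.2 h.ge)

/-- The two-point stabiliser. -/
abbrev EAD (T : Subgroup G) (u : G) : Subgroup G := 𝐍 T ⊓ cj u (𝐍 T)

namespace EA

variable {T : Subgroup G} (h : EA T) {u v d g s t : G}
include h

theorem ord (ht : t ∈ T) (h1 : t ≠ 1) : orderOf t = 2 :=
  orderOf_eq_prime (by rw [pow_two]; exact h.sq t ht) h1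

theorem comm (hs : s ∈ T) (ht : t ∈ T) : s * t = t * s := by
  by_cases h1 : t = 1
  · simp [h1]
  · exact (h.cent t ht h1 s).2 hs

theorem memT (ht : t ∈ 𝐍 T) (h2 : orderOf t = 2) : t ∈ T :=
  h.invH t ht (by rw [← pow_two, ← h2, pow_orderOf_eq_one])

variable [Finite G]

theorem se : IsStronglyEmbedded (𝐍 T) := by
  rw [isStronglyEmbedded_iff]
  refine ⟨h.nn, ?_, ?_⟩
  · obtain ⟨s, hs, -, -, h1, -⟩ := h.two
    exact ⟨s, le_normalizer hs, h.ord hs h1⟩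
  · intro t ht h2 g hg
    have h3 := h.memT ht h2
    have h4 : orderOf (g * t * g⁻¹) = 2 := by
      rw [← h2]; exact (SemiconjBy.orderOf_eq g (by simp [SemiconjBy])).symm
    have h5 := h.memT hg h4
    apply mem_normalizer_of_cj_le
    intro x hx
    rw [mem_cj] at hx
    have h6 : g * t * g⁻¹ ≠ 1 := by intro h0; rw [h0, orderOf_one] at h4; omega
    rw [← h.cent _ h5 h6]
    have := h.comm hx h3
    calc x * (g * t * g⁻¹) = g * (g⁻¹ * x * g * t) * g⁻¹ := by group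
      _ = g * (t * (g⁻¹ * x * g)) * g⁻¹ := by rw [this]
      _ = _ := by group

theorem not_mem_of (hg : g ∉ 𝐍 T) (ht : t ∈ T) (h1 : g⁻¹ * t * g ∈ 𝐍 T) : t = 1 := by
  by_contra h0
  exact hg (SE.mem' h.se (le_normalizer ht) (h.ord ht h0) h1)

theorem odd_D (hu : u ∉ 𝐍 T) : Odd (Nat.card (EAD T u)) := h.se.2.2 u hu

omit h [Finite G] in
theorem mem_D : d ∈ EAD T u ↔ d ∈ 𝐍 T ∧ u⁻¹ * d * u ∈ 𝐍 T := by
  rw [mem_inf, mem_cj]

omit h [Finite G] in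
theorem u_norm (h2 : orderOf u = 2) : u ∈ 𝐍 (EAD T u) := by
  have huu : u * u = 1 := by rw [← pow_two, ← h2, pow_orderOf_eq_one]
  rw [mem_normalizer_iff_cj, cj_inf, cj_cj, huu, cj_one, inf_comm]

theorem eq_one_of_sq (hu : u ∉ 𝐍 T) (hd : d ∈ EAD T u) (h2 : d * d = 1) : d = 1 := by
  have h1 := odd_orderOf_of_mem (h.odd_D hu) hd
  have h3 : orderOf d ∣ 2 := orderOf_dvd_of_pow_eq_one (by rwa [pow_two])
  rcases (Nat.dvd_prime Nat.prime_two).1 h3 with h4 | h4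
  · exact orderOf_eq_one_iff.1 h4
  · rw [h4] at h1; exact absurd h1 (by decide)

theorem inverts (hu : u ∉ 𝐍 T) (h2 : orderOf u = 2) (hd : d ∈ EAD T u) : u * d * u⁻¹ = d⁻¹ := by
  have huu : u * u = 1 := by rw [← pow_two, ← h2, pow_orderOf_eq_one]
  obtain ⟨y, -, hy, c, hc, hcu, rfl⟩ := exists_inverted_mul_centralizer (h.odd_D hu) huu (u_norm h2) hd
  have := h.eq_one_of_sq hu hc (h.csq u h2 c hcu)
  subst this
  simpa using hy

theorem commD (hu : u ∉ 𝐍 T) (h2 : orderOf u = 2) {e : G} (hd : d ∈ EAD T u) (he : e ∈ EAD T u) :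
    d * e = e * d := by
  have h1 := h.inverts hu h2 hd
  have h3 := h.inverts hu h2 he
  have h4 := h.inverts hu h2 (mul_mem hd he)
  have : (d * e)⁻¹ = (e * d)⁻¹ := by
    rw [← h4, mul_inv_rev, ← h1, ← h3]; group
  exact inv_injective this

theorem trans (hu : u ∉ 𝐍 T) (h2 : orderOf u = 2) (hs : s ∈ T) (hs1 : s ≠ 1) (ht : t ∈ T)
    (ht1 : t ≠ 1) : ∃ d ∈ EAD T u, d * s * d⁻¹ = t := by
  obtain ⟨d, hd, h1, h3⟩ := SE.exists_conj_inter h.se hu h2 (le_normalizer hs) (h.ord hs hs1)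
    (le_normalizer ht) (h.ord ht ht1)
  refine ⟨d, mem_D.2 ⟨hd, ?_⟩, h3⟩
  have hi : u⁻¹ = u := inv_eq_of_mul_eq_one_right (by rw [← pow_two, ← h2, pow_orderOf_eq_one])
  have : u⁻¹ * d * u = d⁻¹ := by rw [← h1, hi]
  rw [this]; exact inv_mem hd

theorem decomp (hu : u ∉ 𝐍 T) (h2 : orderOf u = 2) (hg : g ∈ 𝐍 T) :
    ∃ d ∈ EAD T u, ∃ t ∈ T, g = d * t := by
  obtain ⟨s, hs, -, -, h1, -⟩ := h.two
  obtain ⟨d, hd, e⟩ := h.trans hu h2 hs h1 (conj_mem_of_mem_normalizer hg hs) (by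
    intro h0; apply h1
    calc s = g⁻¹ * (g * s * g⁻¹) * g := by group
      _ = 1 := by rw [h0]; group)
  refine ⟨d, hd, d⁻¹ * g, (h.cent s hs h1 _).1 ?_, by group⟩
  calc d⁻¹ * g * s = d⁻¹ * (g * s * g⁻¹) * g := by group
    _ = _ := by rw [← e]; group

theorem eq_one_of_mem (hu : u ∉ 𝐍 T) (hd : d ∈ EAD T u) (ht : d ∈ T) : d = 1 :=
  h.eq_one_of_sq hu hd (h.sq d ht)

theorem fpf (hu : u ∉ 𝐍 T) (hd : d ∈ EAD T u) (h1 : d ≠ 1) (ht : t ∈ T) (hc : d * t = t * d) :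
    t = 1 := by
  by_contra h0
  exact h1 (h.eq_one_of_mem hu hd ((h.cent t ht h0 d).1 hc))

theorem exists_D (hu : u ∉ 𝐍 T) (h2 : orderOf u = 2) : ∃ d ∈ EAD T u, d ≠ 1 := by
  obtain ⟨s, hs, t, ht, h1, h3, h4⟩ := h.two
  obtain ⟨d, hd, e⟩ := h.trans hu h2 hs h1 ht h3
  refine ⟨d, hd, ?_⟩
  rintro rfl
  exact h4 (by simpa using e)

theorem card_D (hu : u ∉ 𝐍 T) (h2 : orderOf u = 2) : Nat.card (EAD T u) = Nat.card T - 1 := by
  obtain ⟨s, hs, -, -, h1, -⟩ := h.two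
  let f : EAD T u → {t : T // t ≠ 1} := fun d =>
    ⟨⟨d * s * (d : G)⁻¹, conj_mem_of_mem_normalizer d.2.1 hs⟩, by
      intro h0; apply h1
      have : (d : G) * s * (d : G)⁻¹ = 1 := congrArg Subtype.val h0
      calc s = (d : G)⁻¹ * (d * s * (d : G)⁻¹) * d := by group
        _ = 1 := by rw [this]; group⟩
  have hf : Function.Bijective f := by
    constructor
    · intro a b hab
      have e : (a : G) * s * (a : G)⁻¹ = b * s * (b : G)⁻¹ := congrArg (fun x => ((x.1 : T) : G)) hab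
      have hm : (b : G)⁻¹ * a ∈ EAD T u := mul_mem (inv_mem b.2) a.2
      have : (b : G)⁻¹ * a = 1 := h.eq_one_of_mem hu hm ((h.cent s hs h1 _).1 (by
        calc (b : G)⁻¹ * a * s = (b : G)⁻¹ * (a * s * (a : G)⁻¹) * a := by group
          _ = _ := by rw [e]; group))
      ext
      exact (inv_mul_eq_one.1 this).symm
    · rintro ⟨⟨t, ht⟩, ht1⟩
      obtain ⟨d, hd, e⟩ := h.trans hu h2 hs h1 ht (fun h0 => ht1 (Subtype.ext h0))
      exact ⟨⟨d, hd⟩, Subtype.ext (Subtype.ext e)⟩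
  rw [Nat.card_eq_of_bijective f hf]
  classical
  haveI := Fintype.ofFinite T
  simp [Nat.card_eq_fintype_card, Fintype.card_subtype_compl]

theorem isComplement (hu : u ∉ 𝐍 T) (h2 : orderOf u = 2) :
    IsComplement' ((EAD T u).subgroupOf (𝐍 T)) (T.subgroupOf (𝐍 T)) := by
  apply isComplement'_of_disjoint_and_mul_eq_univ
  · rw [disjoint_def]
    intro x hx hy
    exact Subtype.ext (h.eq_one_of_mem hu hx hy)
  · rw [Set.eq_univ_iff_forall]
    intro x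
    obtain ⟨d, hd, t, ht, e⟩ := h.decomp hu h2 x.2
    exact ⟨⟨d, hd.1⟩, hd, ⟨t, le_normalizer ht⟩, ht, Subtype.ext e.symm⟩

theorem card_H (hu : u ∉ 𝐍 T) (h2 : orderOf u = 2) :
    Nat.card (𝐍 T) = Nat.card T * (Nat.card T - 1) := by
  have := (h.isComplement hu h2).card_mul_card
  rw [Nat.card_congr (subgroupOfEquivOfLe inf_le_left).toEquiv,
    Nat.card_congr (subgroupOfEquivOfLe le_normalizer).toEquiv, h.card_D hu h2] at this
  rw [← this, mul_comm]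

/-- An element of `H` conjugating `d` into `D` lies in `D`. -/
theorem mem_D_of_conj (hu : u ∉ 𝐍 T) (h2 : orderOf u = 2) (hd : d ∈ EAD T u) (h1 : d ≠ 1)
    (hg : g ∈ 𝐍 T) (hc : g * d * g⁻¹ ∈ EAD T u) : g ∈ EAD T u := by
  obtain ⟨e, he, t, ht, rfl⟩ := h.decomp hu h2 hg
  have h3 : t * d * t⁻¹ * d⁻¹ ∈ EAD T u := by
    have : t * d * t⁻¹ * d⁻¹ = e⁻¹ * (e * t * d * (e * t)⁻¹) * e * d⁻¹ := by group
    rw [this]
    exact mul_mem (mul_mem (mul_mem (inv_mem he) hc) he) (inv_mem hd)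
  have h4 : t * d * t⁻¹ * d⁻¹ ∈ T := by
    have : t * d * t⁻¹ * d⁻¹ = t * (d * t⁻¹ * d⁻¹) := by group
    rw [this]
    exact mul_mem ht (conj_mem_of_mem_normalizer hd.1 (inv_mem ht))
  have h5 := h.eq_one_of_mem hu h3 h4
  have : t = 1 := h.fpf hu hd h1 ht (by
    calc d * t = (t * d * t⁻¹ * d⁻¹) * (d * t) := by rw [h5, one_mul]
      _ = _ := by group)
  subst this
  simpa using he

/-- Every coset other than `H` contains an involution inverting the elements of `H` fixing it. -/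
theorem exists_v (hg : g ∉ 𝐍 T) : ∃ v, orderOf v = 2 ∧ v ∉ 𝐍 T ∧ g⁻¹ * v ∈ 𝐍 T ∧
    ∀ d ∈ 𝐍 T, g⁻¹ * d * g ∈ 𝐍 T → d ∈ EAD T v := by
  obtain ⟨v, h2, hv⟩ := SE.exists_swap h.se g
  refine ⟨v, h2, fun h0 => hg ?_, hv, fun d hd h3 => mem_D.2 ⟨hd, ?_⟩⟩
  · have := mul_mem h0 (inv_mem hv)
    simpa using this
  · have : v⁻¹ * d * v = (g⁻¹ * v)⁻¹ * (g⁻¹ * d * g) * (g⁻¹ * v) := by group
    rw [this]
    exact mul_mem (mul_mem (inv_mem hv) h3) hv

theorem cent_D (hu : u ∉ 𝐍 T) (h2 : orderOf u = 2) (hd : d ∈ EAD T u) (h1 : d ≠ 1)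
    (hc : g * d = d * g) : g ∈ EAD T u := by
  have e : g * d * g⁻¹ = d := by rw [hc]; group
  by_cases hg : g ∈ 𝐍 T
  · exact h.mem_D_of_conj hu h2 hd h1 hg (by rwa [e])
  · exfalso
    have e' : g⁻¹ * d * g = d := by rw [mul_assoc, ← hc]; group
    obtain ⟨v, hv2, hv, hgv, hD⟩ := h.exists_v hg
    have h3 := h.inverts hv hv2 (hD d hd.1 (by rw [e']; exact hd.1))
    have h4 : (g⁻¹ * v) * d * (g⁻¹ * v)⁻¹ = d⁻¹ := by
      calc (g⁻¹ * v) * d * (g⁻¹ * v)⁻¹ = g⁻¹ * (v * d * v⁻¹) * g := by group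
        _ = (g⁻¹ * d * g)⁻¹ := by rw [h3]; group
        _ = _ := by rw [e']
    have h5 := h.mem_D_of_conj hu h2 hd h1 hgv (by rw [h4]; exact inv_mem hd)
    have h6 := h.commD hu h2 h5 hd
    apply h1
    apply h.eq_one_of_sq hu hd
    have : d = d⁻¹ := by rw [← h4, h6]; group
    calc d * d = d * d⁻¹ := by rw [← this]
      _ = 1 := by group

theorem fix (hu : u ∉ 𝐍 T) (h2 : orderOf u = 2) (hd : d ∈ EAD T u) (h1 : d ≠ 1)
    (hc : g⁻¹ * d * g ∈ 𝐍 T) : g ∈ 𝐍 T ∨ u⁻¹ * g ∈ 𝐍 T := by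
  by_cases hg : g ∈ 𝐍 T
  · exact Or.inl hg
  right
  obtain ⟨v, hv2, hv, hgv, hD⟩ := h.exists_v hg
  have h3 := h.inverts hv hv2 (hD d hd.1 hc)
  have h4 := h.inverts hu h2 hd
  have h5 : u⁻¹ * v ∈ EAD T u := h.cent_D hu h2 hd h1 (by
    calc u⁻¹ * v * d = u⁻¹ * (v * d * v⁻¹) * v := by group
      _ = u⁻¹ * (u * d * u⁻¹) * v := by rw [h3, h4]
      _ = _ := by group)
  have := mul_mem (mem_D.1 h5).1 (inv_mem hgv)
  simpa [mul_assoc] using this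

theorem normalizer_D (hu : u ∉ 𝐍 T) (h2 : orderOf u = 2) :
    𝐍 (EAD T u) = EAD T u ⊔ zpowers u := by
  apply le_antisymm
  · intro x hx
    obtain ⟨d, hd, h1⟩ := h.exists_D hu h2
    rcases h.fix hu h2 hd h1 (conj_mem_of_mem_normalizer' hx hd).1 with h3 | h3
    · exact mem_sup_left (h.mem_D_of_conj hu h2 hd h1 h3 (conj_mem_of_mem_normalizer hx hd))
    · have h4 := h.mem_D_of_conj hu h2 hd h1 h3
        (conj_mem_of_mem_normalizer (mul_mem (inv_mem (u_norm h2)) hx) hd)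
      have : x = u * (u⁻¹ * x) := by group
      rw [this]
      exact mul_mem (mem_sup_right (mem_zpowers u)) (mem_sup_left h4)
  · exact sup_le le_normalizer (by simpa using u_norm h2)

theorem exists_comm (hu : u ∉ 𝐍 T) (hd : d ∈ EAD T u) (h1 : d ≠ 1) (ht : t ∈ T) :
    ∃ s ∈ T, s⁻¹ * (d * s * d⁻¹) = t := by
  let f : T → T := fun s => ⟨(s : G)⁻¹ * (d * s * d⁻¹),
    mul_mem (inv_mem s.2) (conj_mem_of_mem_normalizer hd.1 s.2)⟩
  have hf : Function.Injective f := by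
    intro a b hab
    have e : (a : G)⁻¹ * (d * a * d⁻¹) = (b : G)⁻¹ * (d * b * d⁻¹) := congrArg Subtype.val hab
    have : (b : G) * (a : G)⁻¹ = 1 := h.fpf hu hd h1 (mul_mem b.2 (inv_mem a.2)) (by
      calc d * (b * (a : G)⁻¹) = b * ((b : G)⁻¹ * (d * b * d⁻¹)) * d * (a : G)⁻¹ := by group
        _ = _ := by rw [← e]; group)
    ext
    exact (mul_inv_eq_one.1 this).symm
  obtain ⟨s, hs⟩ := Finite.surjective_of_injective hf ⟨t, ht⟩
  exact ⟨s, s.2, congrArg Subtype.val hs⟩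

theorem T_trans (hu : u ∉ 𝐍 T) (h2 : orderOf u = 2) (hg : g ∉ 𝐍 T) :
    ∃ s ∈ T, u⁻¹ * (s * g) ∈ 𝐍 T := by
  obtain ⟨v, hv2, hv, hgv, -⟩ := h.exists_v hg
  obtain ⟨e, he, he1⟩ := h.exists_D hv hv2
  obtain ⟨d, hd, t, ht, e1⟩ := h.decomp hu h2 (inv_mem he.1)
  have h1 : d ≠ 1 := by
    rintro rfl
    apply he1
    apply h.eq_one_of_mem hv he
    rw [one_mul] at e1
    rw [← inv_mem_iff, e1]; exact ht
  obtain ⟨s, hs, e2⟩ := h.exists_comm hu (inv_mem hd) (inv_ne_one.2 h1) (inv_mem ht)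
  have e3 : d⁻¹ = s * e * s⁻¹ := by
    have : e = t⁻¹ * d⁻¹ := by rw [← mul_inv_rev, ← e1, inv_inv]
    rw [this, ← e2]; group
  have h3 : (s * v)⁻¹ * d⁻¹ * (s * v) ∈ 𝐍 T := by
    have : (s * v)⁻¹ * d⁻¹ * (s * v) = v⁻¹ * e * v := by rw [e3]; group
    rw [this]; exact (mem_D.1 he).2
  rcases h.fix hu h2 (inv_mem hd) (inv_ne_one.2 h1) h3 with h4 | h4
  · exact absurd (by simpa using mul_mem (inv_mem (le_normalizer hs)) h4) hv
  · refine ⟨s, hs, ?_⟩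
    have := mul_mem h4 (inv_mem hgv)
    simpa [mul_assoc] using this

omit h [Finite G] in
theorem smul_mk_eq (a x y : G) : a • (QuotientGroup.mk x : G ⧸ 𝐍 T) = QuotientGroup.mk y ↔
    y⁻¹ * (a * x) ∈ 𝐍 T := by
  rw [MulAction.Quotient.smul_mk, smul_eq_mul, eq_comm, QuotientGroup.eq]

omit h [Finite G] in
theorem mk_eq (x y : G) : (QuotientGroup.mk x : G ⧸ 𝐍 T) = QuotientGroup.mk y ↔
    y⁻¹ * x ∈ 𝐍 T := by
  rw [eq_comm, QuotientGroup.eq]

theorem regular (x y : G ⧸ 𝐍 T) (hx : x ≠ QuotientGroup.mk 1) (hy : y ≠ QuotientGroup.mk 1) :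
    ∃! t : G, t ∈ T ∧ t • x = y := by
  obtain ⟨u, hu, h2⟩ := SE.exists_invol_notMem h.se
  induction x using QuotientGroup.induction_on with | H x => ?_
  induction y using QuotientGroup.induction_on with | H y => ?_
  rw [Ne, mk_eq, inv_one, one_mul] at hx hy
  obtain ⟨s, hs, h3⟩ := h.T_trans hu h2 hx
  obtain ⟨t, ht, h4⟩ := h.T_trans hu h2 hy
  have key : ∀ a ∈ T, ∀ b ∈ T, y⁻¹ * (a * x) ∈ 𝐍 T → y⁻¹ * (b * x) ∈ 𝐍 T → a = b := by
    intro a ha b hb h5 h6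
    have := h.not_mem_of hx (mul_mem (inv_mem hb) ha) (by
      have := mul_mem (inv_mem h6) h5
      simpa [mul_assoc] using this)
    exact (inv_mul_eq_one.1 this).symm
  have h5 : y⁻¹ * (t⁻¹ * s * x) ∈ 𝐍 T := by
    have := mul_mem (inv_mem h4) h3
    simpa [mul_assoc] using this
  refine ⟨t⁻¹ * s, ⟨mul_mem (inv_mem ht) hs, (smul_mk_eq _ _ _).2 h5⟩, ?_⟩
  rintro a ⟨ha, h6⟩
  exact key a ha _ (mul_mem (inv_mem ht) hs) ((smul_mk_eq _ _ _).1 h6) h5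

theorem to_std (hu : u ∉ 𝐍 T) (h2 : orderOf u = 2) (ht : t ∈ T) (h1 : t ≠ 1)
    (x₁ x₂ x₃ : G ⧸ 𝐍 T) (h12 : x₁ ≠ x₂) (h13 : x₁ ≠ x₃) (h23 : x₂ ≠ x₃) :
    ∃ g : G, g • x₁ = QuotientGroup.mk 1 ∧ g • x₂ = QuotientGroup.mk u ∧
      g • x₃ = QuotientGroup.mk (t * u) := by
  have hu' : (QuotientGroup.mk u : G ⧸ 𝐍 T) ≠ QuotientGroup.mk 1 := by
    rw [Ne, mk_eq]; simpa using hu
  obtain ⟨a, ha⟩ := MulAction.exists_smul_eq G x₁ (QuotientGroup.mk 1 : G ⧸ 𝐍 T)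
  obtain ⟨b, ⟨hb, hb'⟩, -⟩ := h.regular (a • x₂) _
    (by rw [← ha]; exact fun h0 => h12 (MulAction.injective a h0).symm) hu'
  have hb1 : b • (QuotientGroup.mk 1 : G ⧸ 𝐍 T) = QuotientGroup.mk 1 :=
    (smul_mk_eq _ _ _).2 (by simpa using le_normalizer hb)
  obtain ⟨c, ⟨hc, hc'⟩, -⟩ := h.regular _ (b • a • x₃) hu' (by
    rw [← hb1, ← ha]
    exact fun h0 => h13 (MulAction.injective a (MulAction.injective b h0)).symm)
  have hc1 : c ≠ 1 := by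
    rintro rfl
    rw [one_smul, ← hb'] at hc'
    exact h23 (MulAction.injective a (MulAction.injective b hc'))
  obtain ⟨d, hd, e⟩ := h.trans hu h2 hc hc1 ht h1
  refine ⟨d * b * a, ?_, ?_, ?_⟩
  · rw [mul_smul, mul_smul, ha, hb1, smul_mk_eq]; simpa using hd.1
  · rw [mul_smul, mul_smul, hb', smul_mk_eq, ← mul_assoc]; exact (mem_D.1 hd).2
  · rw [mul_smul, mul_smul, ← hc', ← mul_smul, smul_mk_eq, ← e]
    have := (mem_D.1 hd).2
    simpa [mul_assoc] using this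

theorem three_trans (x₁ x₂ x₃ y₁ y₂ y₃ : G ⧸ 𝐍 T) (h12 : x₁ ≠ x₂) (h13 : x₁ ≠ x₃) (h23 : x₂ ≠ x₃)
    (k12 : y₁ ≠ y₂) (k13 : y₁ ≠ y₃) (k23 : y₂ ≠ y₃) :
    ∃ g : G, g • x₁ = y₁ ∧ g • x₂ = y₂ ∧ g • x₃ = y₃ := by
  obtain ⟨u, hu, h2⟩ := SE.exists_invol_notMem h.se
  obtain ⟨t, ht, -, -, h1, -⟩ := h.two
  obtain ⟨a, a1, a2, a3⟩ := h.to_std hu h2 ht h1 _ _ _ h12 h13 h23
  obtain ⟨b, b1, b2, b3⟩ := h.to_std hu h2 ht h1 _ _ _ k12 k13 k23
  refine ⟨b⁻¹ * a, ?_, ?_, ?_⟩ <;> rw [mul_smul, inv_smul_eq_iff] <;> simp [*]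

theorem sharp (g : G) (x₁ x₂ x₃ : G ⧸ 𝐍 T) (h12 : x₁ ≠ x₂) (h13 : x₁ ≠ x₃) (h23 : x₂ ≠ x₃)
    (e1 : g • x₁ = x₁) (e2 : g • x₂ = x₂) (e3 : g • x₃ = x₃) : g = 1 := by
  obtain ⟨u, hu, h2⟩ := SE.exists_invol_notMem h.se
  obtain ⟨t, ht, -, -, h1, -⟩ := h.two
  obtain ⟨a, a1, a2, a3⟩ := h.to_std hu h2 ht h1 _ _ _ h12 h13 h23
  have k : ∀ x : G ⧸ 𝐍 T, g • x = x → (a * g * a⁻¹) • a • x = a • x := by
    intro x hx
    rw [mul_smul, mul_smul, inv_smul_smul, hx]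
  have k1 := k _ e1
  have k2 := k _ e2
  have k3 := k _ e3
  rw [a1, smul_mk_eq] at k1
  rw [a2, smul_mk_eq, ← mul_assoc] at k2
  rw [a3, smul_mk_eq, ← mul_assoc] at k3
  have hd : a * g * a⁻¹ ∈ EAD T u := mem_D.2 ⟨by simpa using k1, k2⟩
  by_contra h0
  have h3 : a * g * a⁻¹ ≠ 1 := by
    intro h4; apply h0
    calc g = a⁻¹ * (a * g * a⁻¹) * a := by group
      _ = 1 := by rw [h4]; group
  rcases h.fix hu h2 hd h3 k3 with h4 | h4
  · exact hu (by simpa using mul_mem (inv_mem (le_normalizer ht)) h4)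
  · exact h1 (h.not_mem_of hu ht (by rwa [mul_assoc]))

end EA

end H10
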