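import Cfsg.Agent.H10.HH12
import Cfsg.Agent.S3784

/-!
Gross's theorem on fixed-point-free automorphisms of order a power of two.
-/

set_option autoImplicit false

namespace H10.HH
open Cfsg Subgroup H19 H18 Module Polynomial
open scoped commutatorElement

universe u v

section group
variable {X : Type u} [Group X] [Finite X] {M K Q R S V W Z A B C D H T J : Subgroup X} {g s t : X}
  {m n p q : ℕ}

theorem ab_cent_abelem (hp : p.Prime) (hq : q.Prime) (hpq : p ≠ q) (hV : Abelem q V)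
    (hA : A ≤ N(V)) (ht : t ∈ N(V)) (htA : t ∈ N(A)) (c : PiG {q}ᶜ A) (hd : ⁅A, A⁆ ≤ C(V))
    (hn : t ^ p ^ (n + 1) = 1) (hf : V ⊓ C(zpowers t) = ⊥) : ⁅A, zpowers (t ^ p ^ n)⁆ ≤ C(V) := by
  haveI := Fact.mk hq
  have hle : zpowers (t ^ p ^ n) ≤ zpowers t := zpowers_le.2 (npow_mem_zpowers _ _)
  have c' := (c.sup ((pg_zpowers hp hn).sing_ne hpq) (zpowers_le.2 htA)).not_dvd hq rfl
  obtain ⟨U, _, _, _, ρ, e0, e⟩ := exists_rep hV (sup_le hA (zpowers_le.2 ht))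
  have e1 := fun H (h : H ≤ A ⊔ zpowers t) => e H h fun h' => c' (h'.trans (card_dvd h))
  have e2 : ∀ H, H ≤ A ⊔ zpowers t → (H ≤ C(V) ↔ H.subgroupOf (A ⊔ zpowers t) ≤ stabS ρ ⊤) :=
    fun H h => by
      rw [← le_fix_iff, top_le_iff]
      refine ⟨fun h1 => Submodule.eq_top_of_finrank_eq (Nat.pow_right_injective hq.two_le ?_),
        fun h1 => le_cent_of_card_eq (by rw [e1 H h, h1, finrank_top, e0])⟩
      exact ((e1 H h).symm.trans (by rw [inf_eq_left.2 (cents_symm h1)])).trans e0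
  let s : ↥(A ⊔ zpowers t) := ⟨t, mem_sup_right (mem_zpowers t)⟩
  have hs : s ^ p ^ (n + 1) = 1 := Subtype.ext hn
  have e3 : ∀ k : ℕ, (zpowers (t ^ k)).subgroupOf (A ⊔ zpowers t) = zpowers (s ^ k) := fun k =>
    map_injective (A ⊔ zpowers t).subtype_injective (by
      rw [subgroupOf_map_subtype, MonoidHom.map_zpowers, inf_eq_left.2
        ((zpowers_le.2 (npow_mem_zpowers _ _)).trans le_sup_right)]; rfl)
  have h1 : fix ρ (zpowers s) = ⊥ := by
    have := e1 _ le_sup_right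
    have e4 := e3 1
    rw [pow_one, pow_one] at e4
    rw [hf, card_bot, eq_comm, Nat.pow_eq_one, e4] at this
    exact Submodule.finrank_eq_zero.1 (this.resolve_left hq.one_lt.ne')
  rw [e2 _ (commg_le_of_le le_sup_left (hle.trans le_sup_right)),
    ← H1.commutator_subgroupOf le_sup_left (hle.trans le_sup_right), e3]
  exact (ann_norm (S := ⊤) hs (fun _ _ => trivial) (by rw [h1, inf_bot_eq])).abelian hp
    (cast_card_subgroupOf_ne_zero le_sup_left (c.not_dvd hq rfl))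
    (norm_subgroupOf (zpowers_le.2 htA) _ (mem_zpowers t)) hs RInv.top (by
      rw [H1.commutator_subgroupOf le_sup_left le_sup_left]
      exact (e2 _ ((der_le A).trans le_sup_left)).1 hd) (gs_ne' (pow_pos hp.pos _))
    (gs_deg' (pow_pos hp.pos _))

theorem exists_long (hA : A ≤ N(W)) (hs : s ∈ N(W)) (hsA : s ∈ N(A)) (hd : ⁅A, A⁆ ≤ C(W))
    (h0 : ¬ A ≤ C(W)) (c1 : (#W).Coprime #(A ⊔ zpowers s)) (c2 : (#A).Coprime #(zpowers s))
    (c3 : (#A).Coprime m) (hs' : Sol A) (h1 : ∀ x ∈ A, x ∈ C(W) ∨ W ⊓ C[x] = ⊥)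
    (h2 : ∀ i : ℕ, s ^ i ∈ C(W) → m ∣ i) :
    ∃ u ∈ A ⊔ zpowers s, ∀ i, 0 < i → i ≤ m → u ^ i ∉ C(W) := by
  have n1 := (inf_cent_normal (sup_le hA (zpowers_le.2 hs))).norm
  have n2 : W ≤ N((A ⊔ zpowers s) ⊓ C(W)) := norms_of_cents (cents_symm inf_le_right)
  have n3 := le_sup_left.trans n1
  have n4 := n1 (mem_sup_right (mem_zpowers s))
  have d1 := inf_eq_bot_of_cop (c1.coprime_dvd_right
    (card_dvd (inf_le_left : (A ⊔ zpowers s) ⊓ C(W) ≤ _))).symm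
  have hab := (ab_quo_iff n3).2 (le_inf ((der_le A).trans le_sup_left) hd)
  have hcyc : Cyc (quo ((A ⊔ zpowers s) ⊓ C(W)) A) := by
    by_contra hnc
    refine h0 (le_top.trans (eq_top_iff.1 ?_))
    rw [H19.eq_bot_mono (le_inf ((quo_eq_bot_iff n2).1 (le_bot_iff.1 (le_of_cent1_le hab hnc
      (quo_norms hA) (cop_quo (c1.coprime_dvd_right (card_dvd le_sup_left)) _) ?_))) le_rfl) d1,
      cent_bot]
    rintro _ ⟨x, hx, rfl⟩ e
    rw [← cent_zpowers, ← quo_zpowers x.2, quo_inf_cent (zpowers_le.2 x.2) (zpowers_le.2 (hA hx))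
      (by rw [d1]; simp) (Or.inl (sol_zpowers _)), cent_zpowers,
      (h1 x hx).resolve_left fun h => e (qmk_eq_one.2 ⟨mem_sup_left hx, h⟩)]
    exact (quo_eq_bot bot_le).le
  obtain ⟨_, ha⟩ := cyc_iff.1 hcyc
  obtain ⟨a, ha', rfl⟩ := mem_im.1 (ha.le (mem_zpowers _))
  have h3 := quo_norms (K := (A ⊔ zpowers s) ⊓ C(W)) (zpowers_le.2 hsA)
  have h4 := inf_eq_bot_of_cop (cop_quo c2 ((A ⊔ zpowers s) ⊓ C(W)))
  have h5 := c3.coprime_dvd_left (card_quo_dvd ((A ⊔ zpowers s) ⊓ C(W)) A)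
  have h6 : 1 < #(quo ((A ⊔ zpowers s) ⊓ C(W)) A) := (one_lt_card_iff_ne_bot _).2 fun e =>
    h0 (((quo_eq_bot_iff n3).1 e).trans inf_le_right)
  have h7 := Nat.le_of_dvd Nat.card_pos (relIndex_cent_dvd h3)
  rw [IsCyclic.card_mulAut] at h7
  replace h7 := h7.trans_lt (Nat.totient_lt _ h6)
  rw [quo_zpowers n4] at h3 h4 h7
  have h8 := relIndex_pos C(quo ((A ⊔ zpowers s) ⊓ C(W)) A) (zpowers (qmk _ ⟨s, n4⟩))
  have h9 : qmk _ ⟨s, n4⟩ ^ C(quo ((A ⊔ zpowers s) ⊓ C(W)) A).relIndex (zpowers (qmk _ ⟨s, n4⟩)) ∈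
      C(quo ((A ⊔ zpowers s) ⊓ C(W)) A) := pow_index_mem (C(quo ((A ⊔ zpowers s) ⊓ C(W)) A).subgroupOf
        (zpowers (qmk _ ⟨s, n4⟩))) ⟨_, mem_zpowers _⟩
  generalize C(quo ((A ⊔ zpowers s) ⊓ C(W)) A).relIndex (zpowers (qmk _ ⟨s, n4⟩)) = k at h7 h8 h9
  have hu := mul_mem (mem_sup_right (npow_mem_zpowers s k)) (mem_sup_left (T := zpowers s) ha')
  refine ⟨_, hu, fun i hi him h => ?_⟩
  have h10 : (qmk _ ⟨s, n4⟩ ^ k * qmk _ a) ^ i = 1 := by
    rw [← map_pow, ← map_mul, ← map_pow]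
    exact qmk_eq_one.2 ⟨pow_mem hu i, h⟩
  rw [Commute.mul_pow (mem_cent.1 h9 _ (ha.le (mem_zpowers _))).symm, mul_eq_one_iff_inv_eq] at h10
  have h11 : qmk _ a ^ i = 1 := mem_bot.1 (h4.le ⟨pow_mem (ha.le (mem_zpowers _)) i,
    h10 ▸ (zpowers _).inv_mem (pow_mem (npow_mem_zpowers _ k) i)⟩)
  rw [h11, inv_eq_one, ← pow_mul, ← map_pow] at h10
  obtain ⟨j, rfl⟩ := orderOf_dvd_of_pow_eq_one h11
  rw [← ha, Nat.card_zpowers] at h5 h7
  have h12 := h2 _ (qmk_eq_one.1 h10).2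
  rw [mul_left_comm] at h12
  have h13 := Nat.pos_of_mul_pos_left hi
  have h14 := Nat.le_of_dvd (Nat.mul_pos h8 h13) (h5.symm.dvd_of_dvd_mul_left h12)
  exact absurd (him.trans h14) (Nat.mul_lt_mul_of_pos_right h7 h13).not_ge

theorem cyc_of_lt_sq (hq : q.Prime) (hW : #W = q ^ 2) (h : H < W) : Cyc H := by
  obtain ⟨k, hk, e⟩ := (Nat.dvd_prime_pow hq).1 (hW ▸ card_dvd h.le)
  interval_cases k
  · exact card_eq_one.1 e ▸ cyc_bot
  · exact isCyclic_of_prime_card (hp := ⟨hq⟩) (e.trans (pow_one q))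
  · exact absurd (eq_of_le_of_card_ge h.le (hW.trans e.symm).le) h.ne

theorem Act.exists_quo_nil (h : Act M A) [H.Normal] (hH : H ≤ M) (hyp : ∀ (Y : Type u) [Group Y]
    [Finite Y] (π : X →* Y) (F : Type) [Field F] [IsAlgClosed F] (U : Type u) [AddCommGroup U]
    [Module F U] [FiniteDimensional F U] (ρ : Y →* End F U), Function.Surjective π →
      Mod ρ (M.map π) (A.map π) → Nil (H.map π)) :
    ∃ (Y : Type u) (_ : Group Y) (_ : Finite Y) (π : X →* Y), Function.Surjective π ∧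
      M ⊓ π.ker = Fit M ∧ Nil (H.map π) := by
  obtain ⟨k, hk⟩ : ∃ k, ∀ j, k ≤ j → H.lowerCentralSeries j = H.lowerCentralSeries k := by
    obtain ⟨_, ⟨k, rfl⟩, h⟩ := WellFounded.has_min (wellFounded_lt (α := Subgroup X))
      (Set.range H.lowerCentralSeries) ⟨_, 0, rfl⟩
    exact ⟨k, fun j hj => (Subgroup.lowerCentralSeries_antitone H hj).eq_of_not_lt (h _ ⟨j, rfl⟩)⟩
  have h1 : H.lowerCentralSeries k ≤ Fit M := h.le_Fit ⟨(lowerCentralSeries_le_self _ _).trans hH,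
    le_normalizer_of_normal⟩ fun Y _ _ π F _ _ U _ _ _ ρ hπ hM => by
      obtain ⟨j, hj⟩ := (isNilpotent_iff_lowerCentralSeries _).1 (hyp Y π F U ρ hπ hM)
      rw [← hk _ (le_max_left k j), map_lowerCentralSeries]
      exact H19.eq_bot_mono (Subgroup.lowerCentralSeries_antitone _ (le_max_right k j)) hj
  obtain ⟨Y, _, _, π, hπ, -, e⟩ := h.step bot_le (norm_bot.ge.trans' le_top) (by simp)
  refine ⟨Y, _, inferInstance, π, hπ, e, (isNilpotent_iff_lowerCentralSeries _).2 ⟨k, ?_⟩⟩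
  rw [← map_lowerCentralSeries, Subgroup.map_eq_bot_iff]
  exact h1.trans (e.ge.trans inf_le_right)

end group

section rep
variable {F : Type*} [Field F] {X : Type*} [Group X] [Finite X] {U : Type*} [AddCommGroup U]
  [Module F U] {ρ : X →* End F U} {M K P Q R Z A B C D T : Subgroup X} {S : Submodule F U}
  {g s t y : X} {m n p q : ℕ} {l : X → F} {f : F[X]}

theorem WS.dich (h : WS ρ Q Z ⊤ l) (hZ : Q ⊓ C(Q) = Z) (hD : D ≤ N(Q)) (hy : y ∈ N(Q)) (hn : y ∈ N(D))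
    (h1 : D ≤ St Z l) (h2 : y ∈ St Z l) (c1 : (#Q).Coprime #D) (c2 : (#Q).Coprime #(zpowers y))
    (hs : Sol Q) (hq : q.Prime) (e : h.R.relIndex ⁅Q, D⁆ = q ^ 2) (hyR : y ∈ N(h.R)) :
    qmk h.R ⟨y, hyR⟩ ∈ C(quo h.R ⁅Q, D⁆) ∨ quo h.R ⁅Q, D⁆ ⊓ C[qmk h.R ⟨y, hyR⟩] = ⊥ := by
  have hle := commg_le_left hD
  refine or_iff_not_imp_left.2 fun hne => ?_
  have h3 := quo_inf_cent (zpowers_le.2 hyR) (norms_comm (zpowers_le.2 hy) (zpowers_le.2 hn))
    (c2.coprime_dvd_left (card_dvd (inf_le_right.trans hle))) (Or.inl (sol_zpowers _))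
  rw [quo_zpowers hyR] at h3
  rw [← cent_zpowers, h3]
  refine quo_eq_bot (h.not_cyc hD (zpowers_le.2 hy) (zpowers_le.2 hn) h1 (zpowers_le.2 h2) c1 c2 hs
    (cyc_of_lt_sq hq ((card_quo (hle.trans h.norm_R)).trans e) ?_))
  rw [← h3]
  exact inf_le_left.lt_of_ne fun e => hne (zpowers_le.1 (cents_symm (e.ge.trans inf_le_right)))

variable [IsAlgClosed F] [FiniteDimensional F U]

theorem Mod.gross (hM : Mod ρ M (zpowers t)) (hn : t ^ 2 ^ (n + 1) = 1) :
    ⁅M, zpowers (t ^ 2 ^ n)⁆ ≤ Fit M := by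
  have hle : zpowers (t ^ 2 ^ n) ≤ zpowers t := zpowers_le.2 (npow_mem_zpowers _ _)
  have hnt := norms_of_comm (comm_zpowers t) le_rfl hle
  refine commg_le_Fit hM.solM hM.solA hM.norm hM.cop hle fun r q R₀ hrq a1 a2 a3 => ?_
  by_contra hne
  have cM := fun {L K} (h : L ≤ M) (h' : K ≤ zpowers t) =>
    (hM.cop.coprime_dvd_left (card_dvd h)).coprime_dvd_right (card_dvd h')
  have a4 := commg_le_left (hle.trans a3)
  have hRR := commg_commg (hle.trans a3) (cM a2 hle)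
  have hRt := norms_comm a3 hnt
  have hRM := a4.trans a2
  have hr := a1.of_le a4
  clear a4
  generalize ⁅R₀, zpowers (t ^ 2 ^ n)⁆ = R at *
  have c0 := (Oc_pi {q} M).coprime (hr.sing_ne hrq)
  obtain ⟨Q, a5, hQ⟩ := exists_minAct (B := R ⊔ zpowers t) (sup_le (hRM.trans (Oc_norm _ _))
    (norms_Oc _ hM.norm)) le_sup_left (sup_le le_normalizer hRt) c0 (Oc_pi _ _).sol hne
  have hQF := cast_card_ne_zero_of_le hM.cardF (a5.trans (Oc_le_Fit _ _))
  have hQM := a5.trans (Oc_le _ _)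
  have hq' := (Oc_pi {q} M).of_le a5
  have hQ0 : Q ≠ ⊥ := fun e => hQ.not_cent (by rw [e, cent_bot]; exact le_top)
  have hq := hq'.prime_of_ne_bot hQ0
  have cQR := c0.coprime_dvd_left (card_dvd a5)
  have hRQ := le_sup_left.trans hQ.norm
  have htQ := le_sup_right.trans hQ.norm
  have hab : ¬ Ab Q := fun e => hQ.not_cent (hRR.ge.trans ((commutator_mono le_rfl (ab_cent_of_fix
    Nat.prime_two hM.ker hQF e (htQ (mem_zpowers t)) hn hM.fix)).trans
      (commg_le_right (norms_cent hRQ))))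
  obtain ⟨l, hl, hR⟩ := exists_nw hM.ker hQF hQ
  replace hR := hR.resolve_left hab
  have hRs : R ≤ St Z(Q) l := fun r hr => ⟨norm_le_norm_center Q (hRQ hr), fun a ha => by
    rw [mul_assoc, mem_cent.1 (hQ.cent_center hab hr) a ha, inv_mul_cancel_left]⟩
  have h2t : 2 ∣ #(zpowers t) := (pg_zpowers Nat.prime_two hn).dvd_of_ne_bot fun e => hQ0 (by
    have := hM.fpf
    rw [e, cent_bot, inf_top_eq] at this
    exact H19.eq_bot_mono hQM this)
  have h2M := hM.not_dvd Nat.prime_two h2t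
  have hq2 : 2 ≠ q := fun e => h2M (e ▸ (hq'.dvd_of_ne_bot hQ0).trans (card_dvd hQM))
  obtain ⟨a, k, rfl, h1, hsy, h2⟩ := hl.ws.main Nat.prime_two (fun h => h2M (h.trans (card_dvd hQM)))
    (htQ (mem_zpowers t)) (norm_le_norm_center Q (htQ (mem_zpowers t))) (fun _ _ => trivial) hn
    (gs_ne' (pow_pos two_pos _)) (ann_norm hn (fun _ _ => trivial) (by rw [hM.fix, inf_bot_eq]))
    (gs_deg' (pow_pos two_pos _))
  have hτ := zpowers_le.2 ((h1 _).2 (pow_dvd_pow 2 (Nat.le_add_right a k)))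
  have n1 := hl.ws.st_norm_R hRQ hRs
  have n2 := hl.ws.st_norm_R (hle.trans htQ) hτ
  have hP := commg_le_left (hle.trans htQ)
  obtain ⟨h2, h3, -⟩ := h2.resolve_left fun e => hR (by
    replace e := hl.ws.le_R_of_le hP e
    refine hQ.comm.ge.trans ?_
    rw [← hRR, commutator_comm]
    exact H1.three_subgroups' n1 n2 hl.ws.norm_R (by
      rw [commutator_comm _ Q]; exact (commutator_mono e le_rfl).trans (commg_le_left n1))
      (by rw [hQ.comm]; exact e))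
  obtain ⟨d, h4, h5⟩ := exists_pow_of_relIndex hq (hq'.of_le hP) h3 h2
  obtain rfl : d = 1 := by
    rcases Cfsg.Agent.S3784.result 2 q _ d Nat.prime_two hq (Nat.succ_pos k) h4 h5.symm with
      e | e | e
    exacts [e.2.1, absurd e.1.symm hq2, absurd (e.1 ▸ dvd_pow_self 2 k.succ_ne_zero) (by decide)]
  rw [← h5, pow_one, Nat.add_sub_cancel] at h2
  rw [pow_one] at h5
  obtain ⟨A, hA, ⟨b1, b2⟩, b3⟩ := H1.exists_minimal_le
    (P := fun A => R ⊔ zpowers t ≤ N(A) ∧ ¬ A ≤ C(Q)) ⟨sup_le le_normalizer hRt, hQ.not_cent⟩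
  have b4 : ⁅A, A⁆ ≤ C(Q) := by
    by_contra h
    exact (sol_der_lt (hr.of_le hA).sol fun e => b2 (e ▸ bot_le)).ne
      (b3 _ ⟨norms_der b1, h⟩ (der_le A))
  have hAt := le_sup_right.trans b1
  have b5 : ⁅A, zpowers (t ^ 2 ^ (a + k))⁆ ≤ C(Q) := by
    have nZ := hQ.norm.trans (norm_le_norm_center Q)
    have nA := hA.trans (le_sup_left.trans nZ)
    have nt := nZ (mem_sup_right (mem_zpowers t))
    have nQ := (center_normal Q).norm
    have b6 := commg_le_left (hle.trans hAt)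
    have := ab_cent_abelem (n := a + k) Nat.prime_two hq hq2 (hQ.abelem hq hq' le_rfl nQ)
      (quo_norms (hA.trans hRQ)) (t := qmk _ ⟨t, nt⟩) (quo_norms htQ (mem_im_of (mem_zpowers t)))
      (quo_norms hAt (mem_im_of (mem_zpowers t))) (((hr.of_le hA).sing_ne hrq).quo _)
      (by rw [← quo_comm nA nA]; exact quo_cents b4)
      (by rw [← map_pow]; exact qmk_eq_one.2 (by simpa [hn] using one_mem _)) (by
        rw [← quo_zpowers nt, quo_inf_cent (zpowers_le.2 nt) htQ (cM (inf_le_right.trans hQM) le_rfl)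
          (Or.inl (sol_zpowers _)), H19.eq_bot_mono (inf_le_inf_right _ hQM) hM.fpf]
        exact quo_eq_bot bot_le)
    rw [← map_pow, SubmonoidClass.mk_pow, ← quo_zpowers, ← quo_comm nA (zpowers_le.2 (pow_mem nt _)),
      quo_cents_iff (b6.trans nA) nQ, commutator_comm _ Q] at this
    exact cents_of_stable ((cQR.coprime_dvd_left (card_dvd inf_le_left)).coprime_dvd_right
      (card_dvd (b6.trans hA))) ((b6.trans hA).trans (hQ.cent_center hab)) this
  have b6 : Q ⊓ C(A ⊓ C(zpowers (t ^ 2 ^ (a + k)))) ≤ hl.ws.R := by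
    have b7 : Q ⊓ C(A ⊓ C(zpowers (t ^ 2 ^ (a + k)))) ≤ Q ⊓ C(A) := le_inf inf_le_left (by
      conv_rhs => rw [← commg_sup_cent (hle.trans hAt) (cM (hA.trans hRM) hle)
        (Or.inl (sol_zpowers _))]
      exact cents_sup (inf_le_left.trans (cents_symm b5)) inf_le_right)
    refine b7.trans ((le_inf inf_le_left (cents_symm (hQ.min _ (inf_le_left.lt_of_ne fun e =>
      b2 (cents_symm (e.ge.trans inf_le_right))) (norms_inf hQ.norm (norms_cent b1))))).trans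
      ((cent_le_der hRQ cQR hQ.comm).trans (hQ.der.trans hl.ws.le_R)))
  have hs : zpowers (t ^ 2 ^ a) ≤ zpowers t := zpowers_le.2 (npow_mem_zpowers _ _)
  have b7 := hs.trans (norms_inf hAt (norms_cent hnt))
  have b8 : A ⊓ C(zpowers (t ^ 2 ^ (a + k))) ≤ R := inf_le_left.trans hA
  have b9 : A ⊓ C(zpowers (t ^ 2 ^ (a + k))) ⊔ zpowers (t ^ 2 ^ a) ≤
      N(zpowers (t ^ 2 ^ (a + k))) := sup_le (norms_of_cents inf_le_right) (hs.trans hnt)
  replace b4 := (der_mono (inf_le_left : A ⊓ C(zpowers (t ^ 2 ^ (a + k))) ≤ A)).trans b4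
  generalize A ⊓ C(zpowers (t ^ 2 ^ (a + k))) = E at b4 b6 b7 b8 b9
  have l1 : E ⊔ zpowers (t ^ 2 ^ a) ≤ N(Q) := sup_le (b8.trans hRQ) (hs.trans htQ)
  have l2 : E ⊔ zpowers (t ^ 2 ^ a) ≤ St Z(Q) l :=
    sup_le (b8.trans hRs) (zpowers_le.2 ((h1 _).2 dvd_rfl))
  have l3 := hl.ws.st_norm_R l1 l2
  have l4 := norms_comm l1 b9
  have l5 : (#Q).Coprime #(E ⊔ zpowers (t ^ 2 ^ a)) := hq'.coprime (((hr.of_le b8).sing_ne hrq).sup
    (((pg_zpowers Nat.prime_two hn).of_le hs).sing_ne hq2) b7)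
  have l6 := fun y (hy : y ∈ E ⊔ zpowers (t ^ 2 ^ a)) => hl.ws.dich rfl (hle.trans htQ) (l1 hy) (b9 hy)
    hτ (l2 hy) (cM hQM hle) (l5.coprime_dvd_right (card_dvd (zpowers_le.2 hy))) hq'.sol hq h2 (l3 hy)
  have l7 := l3 (mem_sup_right (mem_zpowers _))
  have l8 := le_sup_left.trans l3
  have hW : ¬ ⁅Q, zpowers (t ^ 2 ^ (a + k))⁆ ≤ hl.ws.R := fun e => by
    rw [relIndex_eq_one.2 e] at h2
    exact (Nat.one_lt_pow two_ne_zero hq.one_lt).ne h2
  obtain ⟨u, hu, h6⟩ := exists_long (W := quo hl.ws.R ⁅Q, zpowers (t ^ 2 ^ (a + k))⁆)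
    (A := quo hl.ws.R E) (s := qmk _ ⟨_, l7⟩) (m := 2 ^ (k + 1)) (quo_norms (le_sup_left.trans l4))
    (quo_norms l4 (mem_im_of (mem_sup_right (mem_zpowers _))))
    (quo_norms b7 (mem_im_of (mem_zpowers _)))
    (by rw [← quo_comm l8 l8]; exact quo_cents (b4.trans (cent_mono hP)))
    (fun e => hW ((quo_eq_bot_iff (hP.trans hl.ws.norm_R)).1 (le_bot_iff.1 (by
      rw [← quo_eq_bot b6, ← quo_inf_cent l8 (b8.trans hRQ) ((cQR.coprime_dvd_left
        (card_dvd inf_le_right)).coprime_dvd_right (card_dvd b8)) (Or.inl (hr.of_le b8).sol)]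
      exact le_inf (quo_mono _ hP) (cents_symm e)))))
    (by
      rw [← quo_zpowers l7, ← quo_sup l8 (zpowers_le.2 l7)]
      exact cop_quo (l5.coprime_dvd_left (card_dvd hP)) _)
    (by rw [← quo_zpowers l7]; exact cop_quo (cM (b8.trans hRM) hs) _)
    ((Nat.Coprime.pow_right _ ((Nat.prime_two.coprime_iff_not_dvd.2 h2M).symm.coprime_dvd_left
      (card_dvd (b8.trans hRM)))).coprime_dvd_left (card_quo_dvd _ _))
    (sol_quo (hr.of_le b8).sol _) (by rintro _ ⟨x, hx, rfl⟩; exact l6 x (mem_sup_left hx))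
    (fun i hi => by
      by_contra h7
      have h8 : (t ^ 2 ^ a) ^ 2 ^ (k + 1) = 1 := by rw [← pow_mul, ← pow_add, ← add_assoc, hn]
      have h9 := pow_mem_zpowers_pow Nat.prime_two h8 (Nat.pos_of_ne_zero fun e =>
        h7 (Nat.dvd_of_mod_eq_zero e)) (Nat.mod_lt i (pow_pos two_pos _))
      rw [← pow_eq_pow_mod i h8, ← pow_mul t (2 ^ a) (2 ^ k), ← pow_add] at h9
      rw [← map_pow, SubmonoidClass.mk_pow, ← zpowers_le, ← quo_zpowers] at hi
      refine hW ?_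
      rw [← commg_commg (hle.trans htQ) (cM hQM hle), ← quo_cents_iff (hP.trans hl.ws.norm_R) n2]
      exact cents_symm ((quo_mono _ (zpowers_le.2 h9)).trans hi))
  rw [← quo_zpowers l7, ← quo_sup l8 (zpowers_le.2 l7)] at hu
  obtain ⟨u, hu', rfl⟩ := mem_im.1 hu
  replace hu := hu'
  obtain ⟨D, e1, e2, -⟩ := hsy.main (t := (u : X)) (m := 2 ^ (k + 1) + 1) ⟨l4 hu, norms_inf l4 l3 hu,
    fun i h7 h8 y hy e => ⟨hy, by
      have h9 := hl.ws.norm_R (hP hy)
      have h10 := (l6 _ (pow_mem hu i)).resolve_left (by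
        rw [← SubmonoidClass.mk_pow (u : X) u.2, map_pow]; exact h6 i h7 (by omega))
      refine qmk_eq_one (x := ⟨y, h9⟩).1 (mem_bot.1 (h10.le ⟨mem_im_of hy, mem_cent1.2 ?_⟩))
      rw [← map_mul, ← map_mul, eq_comm, ← mul_inv_eq_one, ← map_inv, ← map_mul]
      exact qmk_eq_one.2 (by simpa [mul_assoc] using e.2)⟩⟩
    fun v hv => ⟨trivial, inv_ws _ (l2 hu) v hv.2⟩
  rw [inf_relIndex_left, h2] at e1
  obtain rfl := (Nat.pow_left_inj two_ne_zero).1 e1
  have := hq.one_lt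
  omega

end rep

theorem gross {X : Type u} [Group X] [Finite X] {M : Subgroup X} {t : X} {n : ℕ}
    (h : Act M (zpowers t)) (hn : t ^ 2 ^ (n + 2) = 1) : Ch (2 * n + 2) M := by
  induction n generalizing X with
  | zero =>
    obtain ⟨Y, _, _, π, -, -, e⟩ := h.step bot_le (norm_bot.ge.trans' le_top) (by simp)
    refine Ch.step π (ch_one (nil_of_ab (comm_iff_der.2 ?_))) (e ▸ Fit_nil M)
    rw [← map_commutator, Subgroup.map_eq_bot_iff]
    exact (der_le_Fit_four h hn).trans (e.ge.trans inf_le_right)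
  | succ n ih =>
    have hle : zpowers (t ^ 2 ^ (n + 2)) ≤ zpowers t := zpowers_le.2 (npow_mem_zpowers _ _)
    haveI : ⁅M, zpowers (t ^ 2 ^ (n + 2))⁆.Normal := normalizer_eq_top_iff.1 (eq_top_iff.2
      (h.sup.ge.trans (sup_le (commg_norml _ _)
        (norms_comm h.norm (norms_of_comm (comm_zpowers t) le_rfl hle)))))
    obtain ⟨Y, _, _, π, h1, h2, h3⟩ := h.exists_quo_nil (H := ⁅M, zpowers (t ^ 2 ^ (n + 2))⁆)
      (commg_le_left h.norm) fun Y _ _ π F _ _ U _ _ _ ρ _ hM => by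
        rw [map_commutator, MonoidHom.map_zpowers, map_pow]
        rw [MonoidHom.map_zpowers] at hM
        exact nil_mono (Fit_nil _) (hM.gross (by rw [← map_pow, hn, map_one]))
    have h4 := h.map h1
    rw [map_commutator, MonoidHom.map_zpowers, map_pow] at h3
    rw [MonoidHom.map_zpowers] at h4
    obtain ⟨Y', _, _, π', h5, h6, h7⟩ := h4.step_pow (H19.le_Fit
      ⟨commg_le_left h4.norm, commg_norml _ _⟩ h3)
    exact Ch.step π (Ch.step π' (ih h5 h6) (h7 ▸ Fit_nil _)) (h2 ▸ Fit_nil M)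

end H10.HH
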