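import Cfsg.Agent.H12.F4
import Cfsg.Prelude.Def_SporadicCombinatorics

/-!
The hexacode.
-/

set_option autoImplicit false

namespace H10.Hex
open Cfsg H12 Equiv

/-- the encoding map -/
def enc {F : Type*} [Field F] (ω : F) (a : F × F × F) : Fin 6 → F :=
  a.1 • ![ω, ω ^ 2, ω ^ 2, ω, ω ^ 2, ω] + a.2.1 • ![ω ^ 2, ω, ω, ω ^ 2, ω ^ 2, ω] +
    a.2.2 • ![ω ^ 2, ω, ω ^ 2, ω, ω, ω ^ 2]

/-- the parity checks -/
def Chk {F : Type*} [Field F] (ω : F) (x : Fin 6 → F) : Prop :=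
  x 0 + x 1 + x 2 + x 3 = 0 ∧ x 2 + x 3 + x 4 + x 5 = 0 ∧
    ω ^ 2 * x 0 + ω * x 1 + ω * x 2 + ω ^ 2 * x 3 + ω * x 4 + ω ^ 2 * x 5 = 0

variable {F : Type*} [Field F] {ω : F}

theorem mem_iff {x : Fin 6 → F} : x ∈ hexacode F ω ↔ ∃ a, enc ω a = x := by
  simp only [hexacode, Submodule.mem_span_triple, enc, Prod.exists]

theorem two (h2 : (2 : F) = 0) (hω : ω ^ 2 + ω + 1 = 0) {x : Fin 6 → F} :
    x ∈ hexacode F ω ↔ Chk ω x := by
  rw [mem_iff]
  constructor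
  · rintro ⟨⟨a, b, c⟩, rfl⟩
    simp only [Chk, enc, Pi.add_apply, Pi.smul_apply, smul_eq_mul]
    simp only [Matrix.cons_val]
    grind
  · rintro ⟨h3, h4, h5⟩
    refine ⟨(x 0 + ω * (x 0 + x 2 + x 4), x 2 + ω * (x 0 + x 2 + x 4), x 4 + ω * (x 0 + x 2 + x 4)),
      funext fun i => ?_⟩
    fin_cases i <;> simp [enc] <;> grind

theorem two_eq [Fintype F] (hF : Fintype.card F = 4) : (2 : F) = 0 := by
  have := FiniteField.cast_card_eq_zero F
  rw [hF] at this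
  exact pow_eq_zero_iff (n := 2) two_ne_zero |>.1 (by norm_num; exact_mod_cast this)

theorem enc_inj (h2 : (2 : F) = 0) (hω : ω ^ 2 + ω + 1 = 0) : Function.Injective (enc ω) := by
  rintro ⟨a, b, c⟩ ⟨a', b', c'⟩ h
  have h0 := congrFun h 0
  have h3 := congrFun h 2
  have h4 := congrFun h 4
  simp [enc] at h0 h3 h4 ⊢
  grind

theorem ncard_wt [Fintype F] [DecidableEq F] (hF : Fintype.card F = 4) (hω : ω ^ 2 + ω + 1 = 0)
    (P : ℕ → Prop) [DecidablePred P] : ∃ w : F4, w ^ 2 + w + 1 = 0 ∧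
    {x : Fin 6 → F | x ∈ hexacode F ω ∧ P (Finset.univ.filter fun i => x i ≠ 0).card}.ncard =
    (Finset.univ.filter fun a => P (Finset.univ.filter fun i => enc w a i ≠ 0).card).card := by
  obtain ⟨e⟩ := exists_equiv_F4 hF
  obtain ⟨w, rfl⟩ := e.surjective ω
  refine ⟨w, e.injective (by simpa using hω), ?_⟩
  let f := e.toEquiv.prodCongr (e.toEquiv.prodCongr e.toEquiv)
  have h : ∀ a i, enc (e w) (f a) i = e (enc w a i) := fun ⟨a, b, c⟩ i => by
    fin_cases i <;> simp [enc, f]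
  rw [← Set.ncard_coe_finset, ← Set.ncard_image_of_injective _
    ((enc_inj (two_eq hF) hω).comp f.injective)]
  congr 1
  ext x
  simp only [Set.mem_setOf_eq, mem_iff, f.surjective.exists, Set.mem_image, Finset.coe_filter,
    Finset.mem_univ, true_and, Function.comp]
  constructor
  · rintro ⟨⟨a, rfl⟩, h1⟩
    exact ⟨a, by simpa [h] using h1, rfl⟩
  · rintro ⟨a, h1, rfl⟩
    exact ⟨⟨a, rfl⟩, by simpa [h] using h1⟩

/-- the monomial map preserves the code -/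
def Pr (ω : F) (σ : Perm (Fin 6)) (c : Fin 6 → Fˣ) : Prop :=
  ∀ x ∈ hexacode F ω, monomialMap σ c x ∈ hexacode F ω

variable {σ τ : Perm (Fin 6)} {c d : Fin 6 → Fˣ}

theorem Pr.mul (h : Pr ω σ c) (h' : Pr ω τ d) : Pr ω (σ * τ) fun i => c i * d (σ⁻¹ i) :=
  fun x hx => by
    convert h _ (h' x hx) using 1
    ext i
    simp [monomialMap, mul_assoc, Perm.mul_def]

theorem Pr.inv [Finite F] (h : Pr ω σ c) : Pr ω σ⁻¹ fun i => (c (σ i))⁻¹ := fun x hx => by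
  obtain ⟨y, hy⟩ := Finite.injective_iff_surjective.1 (show Function.Injective
    (fun y : hexacode F ω => (⟨_, h y y.2⟩ : hexacode F ω)) from fun a b e => Subtype.ext
      (funext fun i => by simpa [monomialMap] using congrFun (congrArg Subtype.val e) (σ i))) ⟨x, hx⟩
  obtain rfl : monomialMap σ c y = x := congrArg Subtype.val hy
  convert y.2 using 1
  ext i
  simp [monomialMap, Perm.inv_def]

theorem Pr.const (u : Fˣ) : Pr ω 1 fun _ => u := fun x hx => (hexacode F ω).smul_mem (u : F) hx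

theorem Pr.diag (h2 : (2 : F) = 0) (hω : ω ^ 2 + ω + 1 = 0) (h : Pr ω 1 c) (i : Fin 6) :
    c i = c 0 := by
  have h3 := (two h2 hω).1 (h ![1, 1, 1, 1, 0, 0] ((two h2 hω).2 (by simp [Chk]; grind)))
  have h4 := (two h2 hω).1 (h ![0, 0, 1, 1, 1, 1] ((two h2 hω).2 (by simp [Chk]; grind)))
  simp [Chk, monomialMap, Perm.one_def] at h3 h4
  fin_cases i <;> simp [Units.ext_iff] <;> grind

theorem not_pr_swap (h2 : (2 : F) = 0) (hω : ω ^ 2 + ω + 1 = 0) : ¬ Pr ω (swap 0 1) c := fun h => by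
  have h3 := (two h2 hω).1 (h ![1, 1, 1, 1, 0, 0] ((two h2 hω).2 (by simp [Chk]; grind)))
  have h4 := (two h2 hω).1 (h ![0, 0, 1, 1, 1, 1] ((two h2 hω).2 (by simp [Chk]; grind)))
  have h5 := (two h2 hω).1 (h ![ω, ω ^ 2, ω ^ 2, ω, ω ^ 2, ω] ((two h2 hω).2 (by simp [Chk]; grind)))
  simp [Chk, monomialMap, swap_apply_def] at h3 h4 h5
  have := (c 0).ne_zero
  grind

theorem exists_pr [Finite F] (h2 : (2 : F) = 0) (hω : ω ^ 2 + ω + 1 = 0) (σ : Perm (Fin 6)) :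
    (∃ c, Pr ω σ c) ↔ σ ∈ alternatingGroup (Fin 6) := by
  let u := Units.mk0 ω fun h => by simp [h] at hω
  have h0 : ∀ i : Fin 5, ∃ c, Pr ω (swap 0 1 * swap i.castSucc i.succ) c := fun i => by
    refine ⟨![1, ![1, 1, 1, 1, u ^ 2, u], 1, ![1, u, u ^ 2, u ^ 2, u ^ 2, u ^ 2], 1] i,
      fun x hx => ?_⟩
    rw [two h2 hω] at hx ⊢
    fin_cases i <;> simp [Chk, monomialMap, Perm.mul_def, swap_apply_def, u] at hx ⊢ <;> grind
  have h1 : ∀ σ : Perm (Fin 6), (Perm.sign σ = 1 → ∃ c, Pr ω σ c) ∧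
      (Perm.sign σ = -1 → ∃ c, Pr ω (σ * swap 0 1) c) := fun σ => by
    induction (Perm.mclosure_swap_castSucc_succ 5).ge (Submonoid.mem_top σ) using
      Submonoid.closure_induction_right with
    | one => exact ⟨fun _ => ⟨_, .const 1⟩, by simp⟩
    | mul_right σ _ s hs ih =>
      obtain ⟨i, rfl⟩ := hs
      obtain ⟨d, hd⟩ := h0 i
      have h3 : i.castSucc ≠ i.succ := Fin.castSucc_lt_succ.ne
      refine ⟨fun h => ?_, fun h => ?_⟩
      · obtain ⟨c, hc⟩ := ih.2 (by simpa [h3, neg_eq_iff_eq_neg] using h)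
        exact ⟨_, by simpa [mul_assoc] using hc.mul hd⟩
      · obtain ⟨c, hc⟩ := ih.1 (by simpa [h3] using h)
        exact ⟨_, by simpa [mul_assoc] using hc.mul hd.inv⟩
  refine ⟨fun ⟨c, hc⟩ => (Int.units_eq_one_or _).resolve_right fun h => ?_, (h1 σ).1⟩
  obtain ⟨d, hd⟩ := (h1 σ).2 h
  exact not_pr_swap h2 hω (by simpa using hc.inv.mul hd)

end H10.Hex
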