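import Cfsg.Agent.H27.PSL2Max2
import Cfsg.Agent.H27.Klein
import Cfsg.Agent.H11.LowDim

/-!
The subgroups of `PSL₂(11)` isomorphic to `A₅`.
-/

set_option autoImplicit false
set_option linter.style.haveILetI false

namespace H10.L211
open H27 Subgroup
open scoped MatrixGroups

variable {F : Type*} [Field F] [Fintype F] {H K L : Subgroup (PG F)}

/-- isomorphic to `A₅` -/
abbrev A5 {G : Type*} [Group G] (H : Subgroup G) : Prop := Nonempty (H ≃* alternatingGroup (Fin 5))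

theorem A5.card {G : Type*} [Group G] {H : Subgroup G} (h : A5 H) : Nat.card H = 60 :=
  (card_of_equiv h).trans card_A5

theorem A5.cj {G : Type*} [Group G] {H : Subgroup G} (h : A5 H) (c : G) : A5 (cj c H) :=
  h.map (cjEquiv c H).symm.trans

theorem charP (hF : Fintype.card F = 11) : CharP F 11 :=
  haveI : Fact (Nat.Prime 11) := ⟨by norm_num⟩
  charP_of_card_eq_prime hF

theorem two_ne (hF : Fintype.card F = 11) : (2 : F) ≠ 0 := two_ne_zero_iff_odd.2 (by rw [hF]; decide)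

theorem card_PS (hF : Fintype.card F = 11) : Nat.card (PS F) = 660 := by
  have := card_PS_odd (F := F) (by rw [hF]; decide)
  rw [hF] at this
  omega

theorem normalizer_eq (hF : Fintype.card F = 11) (h : A5 H) : normalizer (H : Set (PG F)) = H := by
  haveI : Fact (Nat.Prime 11) := ⟨by norm_num⟩
  haveI := charP hF
  have h1 := card_dvd_of_le (le_normalizer (H := H))
  rw [h.card] at h1
  rcases over_A4 11 (two_ne hF) ((hasA4_of_A5 h).mono le_normalizer) with e | e | e | ⟨c, F₁, -, e⟩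
  · rw [card_of_equiv e, card_A4] at h1; omega
  · rw [card_of_equiv e, card_S4] at h1; omega
  · exact (eq_of_le_of_card_ge le_normalizer (by rw [h.card, A5.card e])).symm
  · exfalso
    rw [subfield_eq_top_of_prime (by rw [hF]; norm_num) F₁, pslOf_top, pglOf_top, cj_of_normal,
      cj_of_normal] at e
    have h2 : PS F ≤ normalizer (H : Set (PG F)) := by rcases e with e | e <;> simp [e]
    haveI := H11.psl2_simple (F := F) (by omega)
    haveI : IsSimpleGroup (PS F) := (up_top (F := F)) ▸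
      (topEquiv.symm.trans (upEquiv ⊤)).symm.isSimpleGroup
    have h3 := Nat.card_congr (subgroupOfEquivOfLe (A5_le_PS h)).toEquiv
    rw [h.card] at h3
    rcases ((normal_subgroupOf_iff_le_normalizer (A5_le_PS h)).2 h2).eq_bot_or_eq_top with e | e
    · simp [e] at h3
    · rw [e, card_top, card_PS hF] at h3; omega

theorem three (hF : Fintype.card F = 11) (hL : Nonempty (L ≃* alternatingGroup (Fin 4)))
    {K₁ K₂ K₃ : Subgroup (PG F)} (h₁ : A5 K₁) (h₂ : A5 K₂) (h₃ : A5 K₃) (l₁ : L ≤ K₁)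
    (l₂ : L ≤ K₂) (l₃ : L ≤ K₃) : K₁ = K₂ ∨ K₂ = K₃ ∨ K₁ = K₃ := by
  haveI : Fact (Nat.Prime 11) := ⟨by norm_num⟩
  haveI : Fact (Nat.Prime 3) := ⟨by norm_num⟩
  haveI := charP hF
  obtain ⟨b, hb, h3, h1, hn⟩ : ∃ b ∈ L, b ^ 3 = 1 ∧ b ≠ 1 ∧ ∀ t ∈ L, t * b * t⁻¹ ≠ b⁻¹ := by
    obtain ⟨e⟩ := hL
    obtain ⟨b, h1, h2, h3⟩ : ∃ b : alternatingGroup (Fin 4), b ^ 3 = 1 ∧ b ≠ 1 ∧
      ∀ t, t * b * t⁻¹ ≠ b⁻¹ := by decide +kernel
    refine ⟨e.symm b, (e.symm b).2, by rw [← coe_pow, ← map_pow, h1, map_one, coe_one],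
      by simpa using h2, fun t ht h => h3 (e ⟨t, ht⟩) (e.symm.injective (Subtype.ext ?_))⟩
    simpa using h
  have hinv : ∀ K, A5 K → L ≤ K → ∃ t ∈ K, t * b * t⁻¹ = b⁻¹ := fun K ⟨e⟩ l => by
    have : ∀ b : alternatingGroup (Fin 5), b ^ 3 = 1 → ∃ t, t * b * t⁻¹ = b⁻¹ := by decide +kernel
    obtain ⟨t, ht⟩ := this (e ⟨b, l hb⟩) (by
      rw [← map_pow, map_eq_one_iff _ e.injective]; exact Subtype.ext h3)
    exact ⟨e.symm t, (e.symm t).2, by simpa using congrArg (fun x => (e.symm x).1) ht⟩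
  have heq : ∀ K K' t t', A5 K → A5 K' → L ≤ K → L ≤ K' → t ∈ K → t' ∈ K' →
      t * b * t⁻¹ = b⁻¹ → t * t' ∈ zpowers b → K = K' := fun K K' t t' h h' l l' m m' e z => by
    have a1 := card_dvd_of_le (le_inf l l')
    have a2 := card_dvd_of_le (inf_le_left : K ⊓ K' ≤ K)
    have a3 : t ∈ K ⊓ K' := ⟨m, (mul_mem_cancel_right m').1 (l' (zpowers_le.2 hb z))⟩
    have a4 : Nat.card ↥(K ⊓ K') ≠ 12 := fun a => hn t
      ((eq_of_le_of_card_ge (le_inf l l') (by rw [a, card_of_equiv hL, card_A4])).ge a3) e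
    rw [card_of_equiv hL, card_A4] at a1
    rw [h.card] at a2
    have a5 : Nat.card ↥(K ⊓ K') = 60 := by
      have := Nat.le_of_dvd (by norm_num) a2
      generalize Nat.card ↥(K ⊓ K') = n at *
      interval_cases n <;> omega
    exact (eq_of_le_of_card_ge inf_le_left (by rw [a5, h.card])).symm.trans
      (eq_of_le_of_card_ge inf_le_right (by rw [a5, h'.card]))
  obtain ⟨t₁, m₁, e₁⟩ := hinv _ h₁ l₁
  obtain ⟨t₂, m₂, e₂⟩ := hinv _ h₂ l₂
  obtain ⟨t₃, m₃, e₃⟩ := hinv _ h₃ l₃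
  obtain ⟨a, s, hT, ha⟩ := exists_isTorus 11 (c := b) fun h => h1 (by
    rw [← pow_one b, show 1 = Nat.gcd 3 11 from rfl, pow_gcd_eq_one]; exact ⟨h3, h⟩)
  set D := (zpowers a ⊔ zpowers s) ⊓ PS F
  have hD : Nat.card D ≤ 12 := by
    rw [hT.card_PS, hF]
    rcases hT.ord with e | e <;> rw [e, hF] <;> decide
  set C := D ⊓ centralizer {b}
  have hC : ∀ t t', t ∈ PS F → t' ∈ PS F → t * b * t⁻¹ = b⁻¹ → t' * b * t'⁻¹ = b⁻¹ → t * t' ∈ C :=
    fun t t' m m' e e' => by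
      have : t * t' * b * (t * t')⁻¹ = b := by
        rw [show t * t' * b * (t * t')⁻¹ = t * (t' * b * t'⁻¹) * t⁻¹ by group, e', ← conj_inv, e,
          inv_inv]
      exact ⟨⟨hT.norm b ha h1 _ (.inl this), mul_mem m m'⟩,
        mem_centralizer_singleton_iff.2 (mul_inv_eq_iff_eq_mul.1 this)⟩
  have hZ : zpowers b ≤ C := zpowers_le.2 ⟨⟨mem_sup_left ha, A4_le_PS hL hb⟩,
    mem_centralizer_singleton_iff.2 rfl⟩
  have hlt : C < D := lt_of_le_of_ne inf_le_left fun e => by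
    have : t₁ ∈ C := e.ge ⟨hT.norm b ha h1 _ (.inr e₁), A5_le_PS h₁ m₁⟩
    rw [mem_centralizer_singleton_iff.1 this.2, mul_inv_cancel_right] at e₁
    exact hn 1 L.one_mem (by simpa using e₁)
  have hi : ((zpowers b).subgroupOf C).index ∣ 2 := by
    have a1 := ((zpowers b).subgroupOf C).card_mul_index
    rw [Nat.card_congr (subgroupOfEquivOfLe hZ).toEquiv, Nat.card_zpowers,
      orderOf_eq_prime h3 h1] at a1
    obtain ⟨k, hk⟩ := card_dvd_of_le hlt.le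
    have a2 : Nat.card C ≠ Nat.card D := fun e => hlt.ne (eq_of_le_of_card_ge hlt.le e.ge)
    have a0 := Nat.card_pos (α := D)
    have a3 := Nat.card_pos (α := C)
    have a4 : 2 ≤ k := by
      rcases k with _ | _ | k <;> omega
    have a5 : ((zpowers b).subgroupOf C).index ≤ 2 := by nlinarith
    generalize ((zpowers b).subgroupOf C).index = n at *
    interval_cases n <;> omega
  have inv : ∀ t, t * b * t⁻¹ = b⁻¹ → t⁻¹ * b * t⁻¹⁻¹ = b⁻¹ := fun t e => by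
    calc t⁻¹ * b * t⁻¹⁻¹ = t⁻¹ * (t * b * t⁻¹)⁻¹ * t⁻¹⁻¹ := by rw [e, inv_inv b]
      _ = b⁻¹ := by group
  have p₁ := A5_le_PS h₁ m₁
  have p₂ := A5_le_PS h₂ m₂
  have p₃ := A5_le_PS h₃ m₃
  by_contra! hne
  have n₁ := mt (heq _ _ _ _ h₁ h₂ l₁ l₂ m₁ m₂ e₁) hne.1
  have n₂ := mt (heq _ _ _ _ h₂ h₃ l₂ l₃ (inv_mem m₂) m₃ (inv _ e₂)) hne.2.1
  refine hne.2.2 (heq _ _ _ _ h₁ h₃ l₁ l₃ m₁ m₃ e₁ ?_)
  rcases (Nat.dvd_prime Nat.prime_two).1 hi with e | e
  · exact (index_eq_one.1 e).ge (mem_top (⟨_, hC _ _ p₁ p₃ e₁ e₃⟩ : C))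
  · have := (mul_mem_iff_of_index_two e (a := ⟨_, hC _ _ p₁ p₂ e₁ e₂⟩)
      (b := ⟨_, hC _ _ (inv_mem p₂) p₃ (inv _ e₂) e₃⟩)).2 (iff_of_false n₁ n₂)
    simpa [mem_subgroupOf, mul_assoc] using this

theorem exists_cj (hF : Fintype.card F = 11) (h : A5 H) (h' : A5 K) : ∃ c, K = cj c H := by
  obtain ⟨ψ, hψ, l⟩ := hasA4_of_A5 h
  obtain ⟨ψ', hψ', l'⟩ := hasA4_of_A5 h'
  obtain ⟨d, hd⟩ := A4_conj (two_ne hF) hψ' hψ
  have hL : Nonempty (ψ.range ≃* alternatingGroup (Fin 4)) := ⟨(MonoidHom.ofInjective hψ).symm⟩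
  obtain ⟨S, hS, hS'⟩ := A4_le_S4 (two_ne hF) hL
  obtain ⟨c, hc, hc'⟩ : ∃ c ∈ S, c ∉ H := SetLike.not_le_iff_exists.1 fun e => by
    have := card_dvd_of_le e
    rw [card_of_equiv hS', card_S4, h.card] at this
    omega
  have h1 : c ∈ normalizer (ψ.range : Set (PG F)) := by
    refine (normal_subgroupOf_iff_le_normalizer hS).1 (normal_of_index_eq_two ?_) hc
    have a1 := (ψ.range.subgroupOf S).card_mul_index
    rw [Nat.card_congr (subgroupOfEquivOfLe hS).toEquiv, card_of_equiv hL, card_of_equiv hS',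
      card_A4, card_S4] at a1
    omega
  have h2 : ψ.range ≤ cj c H := fun x hx =>
    mem_cj.2 (l (by simpa using (mem_normalizer_iff.1 (inv_mem h1) x).1 hx))
  have key : ∀ e, cj d K = cj e H → ∃ c, K = cj c H := fun e he =>
    ⟨d⁻¹ * e, by rw [← cj_cj, ← he, cj_cj, inv_mul_cancel, cj_one]⟩
  rcases three hF hL h (h.cj c) (h'.cj d) l h2 (hd ▸ cj_mono d l') with e | e | e
  · refine absurd ?_ hc'
    simpa [normalizer_eq hF h] using cj_eq_iff.1 ((cj_one H).trans e)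
  · exact key c e.symm
  · exact key 1 (by rw [cj_one, e])

end H10.L211
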